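-- S1375 piece SIGDEC (helper60): a tau_2(N)-element x ≠ 1 of N lies in U' N_sigma for every
-- standard factorisation N = K' U' N_sigma, and U' ≠ 1.
import Mathlib
import Cfsg.Agent.Lib.Helper73.BG14Stmt
import Cfsg.Agent.Lib.Helper23.Transitivity

set_option autoImplicit false

namespace Cfsg.Agent.Lib.Helper60.BG14SIGDEC

open Cfsg.Agent.Lib.Helper73.BG14Stmt

universe u

/-- a prime in `κ(N)` has cyclic Sylow subgroups in `N`, so the rank of `N` at it is at most 1 -/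
theorem pRankLE_one_of_kappa {G : Type u} [Group G] [Finite G] {N : Subgroup G} {q : ℕ}
    (hq : q ∈ Cfsg.kappa N) : Cfsg.PRankLE q 1 N := by
  obtain ⟨hqp, -, -, hcyc⟩ := hq
  have : Fact q.Prime := ⟨hqp⟩
  intro A hA hexp
  have hAp : IsPGroup q A := by
    intro a
    refine ⟨1, Subtype.ext ?_⟩
    simpa using hexp a a.2
  obtain ⟨Q, hAQ⟩ := hAp.exists_le_sylow
  obtain ⟨hQc, -⟩ := hcyc Q
  have hQc' : IsCyclic ↥(Q : Subgroup N) := hQc
  have hc1 : IsCyclic ↥(A.subgroupOf (Q : Subgroup N)) := inferInstance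
  have hc2 : IsCyclic ↥A :=
    isCyclic_of_surjective (Subgroup.subgroupOfEquivOfLe hAQ) (Subgroup.subgroupOfEquivOfLe hAQ).surjective
  obtain ⟨g, hg⟩ := hc2
  have h1 : orderOf g = Nat.card A := orderOf_eq_card_of_forall_mem_zpowers hg
  have h2 : orderOf g ∣ q := by
    apply orderOf_dvd_of_pow_eq_one
    apply Subtype.ext
    simpa using hexp g g.2
  rw [← h1, pow_one]
  exact Nat.le_of_dvd hqp.pos h2

theorem main : SigDec.{u} := by
  intro G _ _ hG N hN x hxN hx1 hτ K' U' hdec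
  obtain ⟨hcyc, ⟨hK'N, hK'κ, -⟩, ⟨hU'N, hKS, hUint, hfac⟩, hnorm⟩ := hdec
  have hNsN : Cfsg.sigmaCore N ≤ N := Subgroup.map_subtype_le _
  -- no prime dividing the order of x divides |K'| or |N_sigma|
  have key1 : ∀ q : ℕ, q.Prime → q ∣ orderOf x → ¬ q ∣ Nat.card K' := by
    intro q hq hqx hqK
    exact (hτ q hq hqx).2.2.2 (pRankLE_one_of_kappa (hK'κ q hq hqK))
  have key2 : ∀ q : ℕ, q.Prime → q ∣ orderOf x → ¬ q ∣ Nat.card (Cfsg.sigmaCore N) := by
    intro q hq hqx hqS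
    apply (hτ q hq hqx).2.1
    have h := Cfsg.Agent.Lib.Helper23.Transitivity.isPiNum_card_piCore (G := N) (Cfsg.sigma N)
    apply h q hq
    rwa [Cfsg.sigmaCore, Subgroup.card_map_of_injective (Subgroup.subtype_injective _)] at hqS
  -- N normalises N_sigma
  have hNnormS : N ≤ Subgroup.normalizer (Cfsg.sigmaCore N : Set G) := by
    intro m hm
    rw [Subgroup.mem_normalizer_iff]
    intro s
    constructor
    · rintro ⟨s', hs', rfl⟩
      refine ⟨⟨m, hm⟩ * s' * ⟨m, hm⟩⁻¹, ?_, rfl⟩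
      exact (Cfsg.piCore_normal (Cfsg.sigma N) N).conj_mem s' hs' ⟨m, hm⟩
    · rintro ⟨s', hs', hs'e⟩
      refine ⟨⟨m, hm⟩⁻¹ * s' * ⟨m, hm⟩, ?_, ?_⟩
      · have := (Cfsg.piCore_normal (Cfsg.sigma N) N).conj_mem s' hs' ⟨m, hm⟩⁻¹
        simpa using this
      · have hs'e' : (s' : G) = m * s * m⁻¹ := hs'e
        show m⁻¹ * (s' : G) * m = s
        rw [hs'e']
        group
  -- T := U' ⊔ N_sigma is normalised by N
  have hTN : U' ⊔ Cfsg.sigmaCore N ≤ N := sup_le hU'N hNsN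
  have hKT : K' ≤ Subgroup.normalizer ((U' ⊔ Cfsg.sigmaCore N : Subgroup G) : Set G) := by
    intro k hk
    have h1 := Subgroup.mem_normalizer_iff_map_conj_eq.mp (hnorm hk)
    have h2 := Subgroup.mem_normalizer_iff_map_conj_eq.mp (hNnormS (hK'N hk))
    rw [Subgroup.mem_normalizer_iff_map_conj_eq, Subgroup.map_sup, h1, h2]
  have hNnorm : N ≤ Subgroup.normalizer ((U' ⊔ Cfsg.sigmaCore N : Subgroup G) : Set G) := by
    intro m hm
    obtain ⟨a, ha, b, hb, rfl⟩ := hfac m hm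
    have h1 : K' ⊔ Cfsg.sigmaCore N ≤
        Subgroup.normalizer ((U' ⊔ Cfsg.sigmaCore N : Subgroup G) : Set G) :=
      sup_le hKT (le_sup_right.trans Subgroup.le_normalizer)
    exact Subgroup.mul_mem _ (Subgroup.le_normalizer (le_sup_left (a := U') ha)) (h1 hb)
  -- x ∈ T
  have hxT : x ∈ U' ⊔ Cfsg.sigmaCore N := by
    have hnor : ((U' ⊔ Cfsg.sigmaCore N).subgroupOf N).Normal :=
      (Subgroup.normal_subgroupOf_iff_le_normalizer hTN).mpr hNnorm
    let φ : N →* N ⧸ (U' ⊔ Cfsg.sigmaCore N).subgroupOf N := QuotientGroup.mk' _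
    have hφ1 : ∀ (y : G) (hy : y ∈ N), y ∈ U' ⊔ Cfsg.sigmaCore N → φ ⟨y, hy⟩ = 1 := by
      intro y hy hyT
      exact (QuotientGroup.eq_one_iff _).mpr (Subgroup.mem_subgroupOf.mpr hyT)
    have hφ2 : ∀ (y : G) (hy : y ∈ N), φ ⟨y, hy⟩ = 1 → y ∈ U' ⊔ Cfsg.sigmaCore N := by
      intro y hy h
      exact Subgroup.mem_subgroupOf.mp ((QuotientGroup.eq_one_iff _).mp h)
    let W : Subgroup (N ⧸ (U' ⊔ Cfsg.sigmaCore N).subgroupOf N) := (K'.subgroupOf N).map φ
    have hW : ∀ m : N, φ m ∈ W := by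
      intro m
      obtain ⟨a, ha, b, hb, hm⟩ := hfac m m.2
      have h1 : K' ⊔ Cfsg.sigmaCore N ≤ (W.comap φ).map N.subtype := by
        apply sup_le
        · intro k hk
          exact ⟨⟨k, hK'N hk⟩, ⟨⟨k, hK'N hk⟩, Subgroup.mem_subgroupOf.mpr hk, rfl⟩, rfl⟩
        · intro s hs
          refine ⟨⟨s, hNsN hs⟩, ?_, rfl⟩
          show φ ⟨s, hNsN hs⟩ ∈ W
          rw [hφ1 s (hNsN hs) (le_sup_right (a := U') hs)]
          exact W.one_mem
      obtain ⟨b', hb', hbb'⟩ := h1 hb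
      have ha' : φ ⟨a, hU'N ha⟩ = 1 := hφ1 a (hU'N ha) (le_sup_left (b := Cfsg.sigmaCore N) ha)
      have hmm : m = ⟨a, hU'N ha⟩ * b' := Subtype.ext (by
        rw [hm, Subgroup.coe_mul]
        congr 1
        exact hbb'.symm)
      rw [hmm, map_mul, ha', one_mul]
      exact hb'
    obtain ⟨k, hk, hkx⟩ := hW ⟨x, hxN⟩
    by_contra hxT
    have hne : φ ⟨x, hxN⟩ ≠ 1 := fun h => hxT (hφ2 x hxN h)
    obtain ⟨q, hq, hqo⟩ := Nat.exists_prime_and_dvd (n := orderOf (φ ⟨x, hxN⟩))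
      (by rwa [Ne, orderOf_eq_one_iff])
    have h1 : q ∣ orderOf x := by
      have h3 : orderOf (φ ⟨x, hxN⟩) ∣ orderOf (⟨x, hxN⟩ : N) := orderOf_map_dvd φ _
      rw [Subgroup.orderOf_mk] at h3
      exact hqo.trans h3
    have h2 : q ∣ Nat.card K' := by
      rw [← hkx] at hqo
      have h3 : orderOf (φ k) ∣ orderOf k := orderOf_map_dvd φ _
      have h4 : orderOf (k : G) ∣ Nat.card K' :=
        Subgroup.orderOf_dvd_natCard K' (Subgroup.mem_subgroupOf.mp hk)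
      rw [Subgroup.orderOf_coe] at h4
      exact (hqo.trans h3).trans h4
    exact key1 q hq h1 h2
  refine ⟨?_, hxT⟩
  intro hU
  have hxS : x ∈ Cfsg.sigmaCore N := by
    rw [hU, bot_sup_eq] at hxT
    exact hxT
  obtain ⟨q, hq, hqx⟩ := Nat.exists_prime_and_dvd (n := orderOf x)
    (by rwa [Ne, orderOf_eq_one_iff])
  exact key2 q hq hqx (hqx.trans (Subgroup.orderOf_dvd_natCard _ hxS))

end Cfsg.Agent.Lib.Helper60.BG14SIGDEC
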