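import Mathlib
import Cfsg.Prelude.Def_Characters
import Cfsg.Prelude.Def_Blocks
import Cfsg.Agent.Lib.Helper76.BrRBStmt

/-!
# S4504, part B, piece `HC`: `C_L(x) = ⟨x⟩ × Z(L)`
-/

set_option autoImplicit false

namespace Cfsg.Agent.Lib.Helper60.BrRBHC

open Cfsg
open scoped ComplexConjugate Classical

universe u

/-- A `p`-element centralizing a Sylow `p`-subgroup lies in it. -/
theorem mem_sylow_of_centralizes {L : Type u} [Group L] [Finite L] {p : ℕ} [Fact p.Prime]
    (P : Sylow p L) (y : L) (hy : y ∈ Subgroup.centralizer ((P : Subgroup L) : Set L))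
    (k : ℕ) (hyk : y ^ (p ^ k) = 1) : y ∈ (P : Subgroup L) := by
  have hp : p.Prime := Fact.out
  have hZ : IsPGroup p (Subgroup.zpowers y) := by
    have hdvd : orderOf y ∣ p ^ k := orderOf_dvd_of_pow_eq_one hyk
    obtain ⟨j, -, hj⟩ := (Nat.dvd_prime_pow hp).1 hdvd
    exact IsPGroup.of_card (n := j) (by rw [Nat.card_zpowers, hj])
  have hle : Subgroup.zpowers y ≤ Subgroup.normalizer ((P : Subgroup L) : Set L) := by
    rw [Subgroup.zpowers_le]
    exact Subgroup.centralizer_le_normalizer _ hy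
  have hsup : IsPGroup p (Subgroup.zpowers y ⊔ (P : Subgroup L) : Subgroup L) :=
    IsPGroup.to_sup_of_normal_right' hZ P.isPGroup' hle
  have heq := P.is_maximal' hsup le_sup_right
  have : Subgroup.zpowers y ≤ (P : Subgroup L) := by
    rw [← heq]; exact le_sup_left
  exact this (Subgroup.mem_zpowers y)

theorem main : Cfsg.Agent.Lib.Helper76.BrRB.HC.{u} := by
  intro L _ _ p _ c hreg x hx hx1 g hg
  have hp : p.Prime := Fact.out
  -- `P = ⟨x⟩`
  have hgen : Subgroup.zpowers x = (c.P : Subgroup L) := by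
    have hle : Subgroup.zpowers x ≤ (c.P : Subgroup L) := by
      rw [Subgroup.zpowers_le]; exact hx
    apply Subgroup.eq_of_le_of_card_ge hle
    rw [c.hP, Nat.card_zpowers]
    have hdvd : orderOf x ∣ p := by
      have h1 : orderOf (⟨x, hx⟩ : (c.P : Subgroup L)) ∣ Nat.card (c.P : Subgroup L) :=
        orderOf_dvd_natCard _
      rw [c.hP] at h1
      rwa [← Subgroup.orderOf_mk x hx]
    rcases (Nat.dvd_prime hp).1 hdvd with h | h
    · exact absurd (orderOf_eq_one_iff.1 h) hx1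
    · exact h.ge
  -- `g ∈ C_L(P)`
  have hgC : g ∈ Subgroup.centralizer ((c.P : Subgroup L) : Set L) := by
    rw [← hgen]
    rw [Subgroup.mem_centralizer_iff]
    intro h hh
    obtain ⟨n, rfl⟩ := Subgroup.mem_zpowers_iff.1 hh
    have hc : Commute g x := hg
    exact ((hc.zpow_right n).eq).symm
  -- decomposition of `g`
  have hn0 : orderOf g ≠ 0 := (orderOf_pos g).ne'
  obtain ⟨k, m, hm, hkm⟩ := Nat.exists_eq_pow_mul_and_not_dvd hn0 p hp.ne_one
  have hcop : Nat.Coprime (p ^ k) m := Nat.Coprime.pow_left k ((Nat.Prime.coprime_iff_not_dvd hp).2 hm)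
  have hbez : ((p ^ k : ℕ) : ℤ) * Nat.gcdA (p ^ k) m + (m : ℤ) * Nat.gcdB (p ^ k) m = 1 := by
    have := Nat.gcd_eq_gcd_ab (p ^ k) m
    rw [hcop.gcd_eq_one] at this
    exact_mod_cast this.symm
  set a := Nat.gcdA (p ^ k) m with ha
  set b := Nat.gcdB (p ^ k) m with hb
  set z : L := g ^ (((p ^ k : ℕ) : ℤ) * a) with hz
  set y : L := g ^ ((m : ℤ) * b) with hy
  have hgzy : g = z * y := by
    rw [hz, hy, ← zpow_add, hbez, zpow_one]
  have hzC : z ∈ Subgroup.centralizer ((c.P : Subgroup L) : Set L) := Subgroup.zpow_mem _ hgC _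
  have hyC : y ∈ Subgroup.centralizer ((c.P : Subgroup L) : Set L) := Subgroup.zpow_mem _ hgC _
  have hzm : z ^ m = 1 := by
    rw [hz, ← zpow_natCast, ← zpow_mul]
    have : ((p ^ k : ℕ) : ℤ) * a * (m : ℤ) = ((orderOf g : ℕ) : ℤ) * a := by
      rw [hkm]; push_cast; ring
    rw [this, zpow_mul, zpow_natCast, pow_orderOf_eq_one, one_zpow]
  have hypk : y ^ (p ^ k) = 1 := by
    rw [hy, ← zpow_natCast, ← zpow_mul]
    have : (m : ℤ) * b * ((p ^ k : ℕ) : ℤ) = ((orderOf g : ℕ) : ℤ) * b := by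
      rw [hkm]; push_cast; ring
    rw [this, zpow_mul, zpow_natCast, pow_orderOf_eq_one, one_zpow]
  have hzreg : ¬ p ∣ orderOf z := fun h => hm (h.trans (orderOf_dvd_of_pow_eq_one hzm))
  have hzcen : z ∈ Subgroup.center L := hreg z hzC hzreg
  have hyP : y ∈ (c.P : Subgroup L) := mem_sylow_of_centralizes c.P y hyC k hypk
  rw [← hgen] at hyP
  have hyP' : y ∈ Submonoid.powers x := mem_powers_iff_mem_zpowers.2 hyP
  obtain ⟨n, hn⟩ := hyP'
  have hn' : x ^ n = y := hn
  refine ⟨n, z, hzcen, ?_⟩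
  rw [hgzy, hn']
  exact (Subgroup.mem_center_iff.1 hzcen y).symm

end Cfsg.Agent.Lib.Helper60.BrRBHC
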