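import Mathlib
import Cfsg.Prelude.Def_Characters
import Cfsg.Prelude.Def_Blocks
import Cfsg.Agent.Lib.Helper76.BrRBStmt

/-!
# S4504, part R, piece `P5`: `p ≥ 5`
-/

set_option autoImplicit false

namespace Cfsg.Agent.Lib.Helper60.BrRBP5

open Cfsg
open scoped ComplexConjugate Classical

universe u

/-- Endomorphisms of a one-dimensional coordinate space commute. -/
theorem end_fin_one_comm (f g : Module.End ℂ (Fin 1 → ℂ)) : f * g = g * f := by
  apply LinearMap.toMatrix'.injective
  rw [LinearMap.toMatrix'_mul, LinearMap.toMatrix'_mul]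
  ext i j
  fin_cases i; fin_cases j
  simp [Matrix.mul_apply, mul_comm]

/-- A group with a faithful character of degree one is commutative. -/
theorem comm_of_faithful_linear {G : Type u} [Group G] (ρ : Representation ℂ G (Fin 1 → ℂ))
    (hfaith : ∀ g : G, ρ.character g = ρ.character 1 → g = 1) (g h : G) : g * h = h * g := by
  have hcomm : ρ (g * h * g⁻¹ * h⁻¹) = 1 := by
    have e1 : ρ g * ρ g⁻¹ = 1 := by rw [← map_mul, mul_inv_cancel, map_one]
    have e2 : ρ h * ρ h⁻¹ = 1 := by rw [← map_mul, mul_inv_cancel, map_one]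
    rw [map_mul, map_mul, map_mul, mul_assoc (ρ g), end_fin_one_comm (ρ h) (ρ g⁻¹),
      ← mul_assoc, e1, one_mul, e2]
  have h1 : g * h * g⁻¹ * h⁻¹ = 1 := by
    apply hfaith
    unfold Representation.character
    rw [hcomm, (map_one ρ : ρ 1 = 1)]
  calc g * h = (g * h * g⁻¹ * h⁻¹) * (h * g) := by group
    _ = h * g := by rw [h1, one_mul]

theorem main : Cfsg.Agent.Lib.Helper76.BrRB.P5.{u} := by
  intro G _ _ p _ P hnn χ hχ hfaith hdeg
  have hp : p.Prime := Fact.out
  by_contra hlt
  rw [not_le] at hlt
  obtain ⟨n, ρ, rfl⟩ := hχ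
  have h1 : ρ.character 1 = (n : ℂ) := by
    unfold Representation.character
    rw [map_one]
    simp
  have hd : charDegree ρ.character = n := by
    unfold charDegree
    rw [h1]
    simp
  rw [hd] at hdeg
  have hn : n = 1 := by
    have h2 := hp.two_le
    have hp4 : p ≠ 4 := by
      intro h4
      rw [h4] at hp
      exact absurd hp (by decide)
    omega
  subst hn
  apply hnn
  constructor
  intro x hx g
  have : g * x * g⁻¹ = x := by
    rw [comm_of_faithful_linear ρ hfaith g x, mul_assoc, mul_inv_cancel, mul_one]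
  rw [this]
  exact hx

end Cfsg.Agent.Lib.Helper60.BrRBP5
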