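import Mathlib
import Cfsg.Agent.Lib.Helper96.HallDStmt

/-!
# S2534, piece `DE`
-/

set_option autoImplicit false

namespace Cfsg.Agent.Lib.Helper60.HDDE

open Equiv Cfsg.Agent.Lib.Helper96.HallConjStmt Cfsg.Agent.Lib.Helper96.HallDStmt
open scoped Pointwise

theorem main : Cfsg.Agent.Lib.Helper96.HallDStmt.DE := by
  intro G _ _ π hD
  have hbot : Cfsg.IsPiSubgroup π (⊥ : Subgroup G) := by
    intro p hp hdvd
    rw [Subgroup.card_bot] at hdvd
    exact absurd (Nat.dvd_one.1 hdvd) hp.ne_one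
  obtain ⟨M, -, hM⟩ := Finite.exists_le_maximal (p := Cfsg.IsPiSubgroup π) hbot
  have hconj : ∀ L : Subgroup G, Cfsg.IsPiSubgroup π L →
      ∃ g : G, L ≤ M.map (MulAut.conj g).toMonoidHom := by
    intro L hL
    obtain ⟨M', hLM', hM'⟩ := Finite.exists_le_maximal (p := Cfsg.IsPiSubgroup π) hL
    obtain ⟨g, hg⟩ := hD M M' hM hM'
    exact ⟨g, hg ▸ hLM'⟩
  refine ⟨M, ⟨hM.1, ?_⟩, hconj⟩
  intro p hp hpπ hdvd
  have : Fact p.Prime := ⟨hp⟩
  obtain ⟨S⟩ : Nonempty (Sylow p G) := inferInstance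
  have hS : Cfsg.IsPiSubgroup π (S : Subgroup G) := by
    intro q hq hqdvd
    obtain ⟨k, hk⟩ := IsPGroup.iff_card.1 S.isPGroup'
    rw [hk] at hqdvd
    have := (Nat.prime_dvd_prime_iff_eq hq hp).1 (hq.dvd_of_dvd_pow hqdvd)
    rw [this]
    exact hpπ
  obtain ⟨g, hg⟩ := hconj S hS
  have h1 : (M.map (MulAut.conj g).toMonoidHom).index ∣ (S : Subgroup G).index :=
    Subgroup.index_dvd_of_le hg
  have h2 : (M.map (MulAut.conj g).toMonoidHom).index = M.index :=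
    Subgroup.index_map_equiv M (MulAut.conj g)
  rw [h2] at h1
  exact S.not_dvd_index (hdvd.trans h1)

end Cfsg.Agent.Lib.Helper60.HDDE
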