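import Mathlib
import Cfsg.Agent.Lib.Helper96.HallDStmt

/-!
# S2534, piece `DSYL`
-/

set_option autoImplicit false

namespace Cfsg.Agent.Lib.Helper60.HDDSYL

open Equiv Cfsg.Agent.Lib.Helper96.HallConjStmt Cfsg.Agent.Lib.Helper96.HallDStmt
open scoped Pointwise

theorem main : Cfsg.Agent.Lib.Helper96.HallDStmt.DSYL := by
  intro G _ _ π hπ H K hH hK
  by_cases hex : ∃ p : ℕ, p.Prime ∧ p ∈ π ∧ p ∣ Nat.card G
  · obtain ⟨p, hp, hpπ, hpG⟩ := hex
    have : Fact p.Prime := ⟨hp⟩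
    -- π-subgroups are the `p`-subgroups
    have h1 : ∀ L : Subgroup G, Cfsg.IsPiSubgroup π L → IsPGroup p L := by
      intro L hL
      have hne : Nat.card L ≠ 0 := Nat.card_pos.ne'
      have := Nat.eq_prime_pow_of_unique_prime_dvd (n := Nat.card L) (p := p) hne
        (fun {d} hd hdvd => hπ d p hd hp (hL d hd hdvd) hpπ
          (hdvd.trans (Subgroup.card_subgroup_dvd_card L)) hpG)
      exact IsPGroup.of_card this
    have h2 : ∀ L : Subgroup G, IsPGroup p L → Cfsg.IsPiSubgroup π L := by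
      intro L hL q hq hdvd
      obtain ⟨k, hk⟩ := IsPGroup.iff_card.1 hL
      rw [hk] at hdvd
      have := (Nat.prime_dvd_prime_iff_eq hq hp).1 (hq.dvd_of_dvd_pow hdvd)
      rw [this]
      exact hpπ
    have h3 : ∀ L : Subgroup G, Maximal (Cfsg.IsPiSubgroup π) L →
        ∃ Q : Sylow p G, (Q : Subgroup G) = L := by
      intro L hL
      obtain ⟨Q, hQ⟩ := (h1 L hL.1).exists_le_sylow
      exact ⟨Q, le_antisymm (hL.2 (h2 Q Q.isPGroup') hQ) hQ⟩
    obtain ⟨Q, rfl⟩ := h3 H hH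
    obtain ⟨Q', rfl⟩ := h3 K hK
    obtain ⟨g, hg⟩ := MulAction.exists_smul_eq G Q Q'
    refine ⟨g, ?_⟩
    rw [← hg]
    rfl
  · have hbot : ∀ L : Subgroup G, Cfsg.IsPiSubgroup π L → L = ⊥ := by
      intro L hL
      rw [← Subgroup.card_eq_one]
      rw [Nat.eq_one_iff_not_exists_prime_dvd]
      intro p hp hdvd
      exact hex ⟨p, hp, hL p hp hdvd, hdvd.trans (Subgroup.card_subgroup_dvd_card L)⟩
    refine ⟨1, ?_⟩
    rw [hbot H hH.1, hbot K hK.1, Subgroup.map_bot]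

end Cfsg.Agent.Lib.Helper60.HDDSYL
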