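import Mathlib
import Cfsg.Agent.Lib.Helper96.HallDStmt

/-!
# S2534, piece `DTOP`
-/

set_option autoImplicit false

namespace Cfsg.Agent.Lib.Helper60.HDDTOP

open Equiv Cfsg.Agent.Lib.Helper96.HallConjStmt Cfsg.Agent.Lib.Helper96.HallDStmt
open scoped Pointwise

theorem main : Cfsg.Agent.Lib.Helper96.HallDStmt.DTOP := by
  intro G _ _ π hπ H K hH hK
  have hall : ∀ L : Subgroup G, Cfsg.IsPiSubgroup π L := by
    intro L p hp hdvd
    exact hπ p hp (hdvd.trans (Subgroup.card_subgroup_dvd_card L))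
  have htop : ∀ L : Subgroup G, Maximal (Cfsg.IsPiSubgroup π) L → L = ⊤ := by
    intro L hL
    exact top_le_iff.1 (hL.2 (hall ⊤) le_top)
  refine ⟨1, ?_⟩
  rw [htop H hH, htop K hK]
  rw [← MonoidHom.range_eq_map]
  exact (MonoidHom.range_eq_top.2 (MulAut.conj (1 : G)).surjective).symm

end Cfsg.Agent.Lib.Helper60.HDDTOP
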