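import Cfsg.Agent.Lib.Helper60.J1Order

set_option autoImplicit false

/-!
# J1 project (helper60): subgroups of `J1` given by explicit closed lists of packed matrices
-/

namespace Cfsg.Agent.Lib.Helper60.J1

open Cfsg

/-- `l` is closed under multiplication -/
def mulClosedL (l : List M7) : Bool := l.all (fun a => l.all (fun b => memL (a.mul b) l))

/-- every entry of `l` is in `l'` -/
def subL (l l' : List M7) : Bool := l.all (fun a => memL a l')

theorem not_mem_of_memL_false {A : M7} {l : List M7} (h : memL A l = false) : A ∉ l := by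
  intro hA
  have : memL A l = true := List.any_eq_true.2 ⟨A, hA, M7.beq_self A⟩
  rw [h] at this
  exact Bool.false_ne_true this

/-- the elements of `J1` whose matrix is in the list `l`: a subgroup when `l` is a closed list -/
def listGroup (l : List M7) (hr : allRed l = true) (h1 : memL M7.one l = true)
    (hc : mulClosedL l = true) : Subgroup ↥Cfsg.Spor.J1 :=
  let S : Submonoid ↥Cfsg.Spor.J1 :=
    { carrier := {g | ∃ m ∈ l, ι g = m.toMat}
      mul_mem' := by
        rintro a b ⟨m, hm, e⟩ ⟨m', hm', e'⟩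
        have h := List.all_eq_true.1 (List.all_eq_true.1 hc m hm) m' hm'
        exact ⟨m.mul m', mem_of_memL h, by
          rw [map_mul, e, e', M7.toMat_mul _ _ (isRed_of_allRed hr hm)]⟩
      one_mem' := ⟨M7.one, mem_of_memL h1, by rw [map_one, M7.toMat_one]⟩ }
  { S with
    inv_mem' := by
      intro a ha
      have e : a⁻¹ = a ^ (orderOf a - 1) := by
        rw [eq_comm, ← mul_eq_one_iff_eq_inv, ← pow_succ,
          Nat.sub_add_cancel (orderOf_pos a), pow_orderOf_eq_one]
      have h2 : a ^ (orderOf a - 1) ∈ S := S.pow_mem ha _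
      have h3 : a⁻¹ ∈ S := by rw [e]; exact h2
      exact h3 }

theorem mem_listGroup (l : List M7) (hr : allRed l = true) (h1 : memL M7.one l = true)
    (hc : mulClosedL l = true) (g : ↥Cfsg.Spor.J1) :
    g ∈ listGroup l hr h1 hc ↔ ∃ m ∈ l, ι g = m.toMat := Iff.rfl

theorem listGroup_le (l l' : List M7) (hr : allRed l = true) (h1 : memL M7.one l = true)
    (hc : mulClosedL l = true) (hr' : allRed l' = true) (h1' : memL M7.one l' = true)
    (hc' : mulClosedL l' = true) (hs : subL l l' = true) :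
    listGroup l hr h1 hc ≤ listGroup l' hr' h1' hc' := by
  rintro g ⟨m, hm, e⟩
  exact ⟨m, mem_of_memL (List.all_eq_true.1 hs m hm), e⟩

/-- every entry of a word table is the matrix of an element of `J1` -/
theorem exists_of_wordsOK (l : List M7) (ws : List (List ℕ)) (hw : wordsOK g1 l ws = true)
    (m : M7) (hm : m ∈ l) : ∃ g : ↥Cfsg.Spor.J1, ι g = m.toMat := by
  unfold wordsOK at hw
  simp only [Bool.and_eq_true, Nat.beq_eq] at hw
  obtain ⟨w, _, hf⟩ := zip_all_exists _ l ws hw.1 hw.2 m hm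
  have e2 : m = evN g1 w := M7.eq_of_beq hf
  exact ⟨ev gen1 w, by rw [ι_ev1, e2]⟩

theorem card_listGroup (l : List M7) (hr : allRed l = true) (h1 : memL M7.one l = true)
    (hc : mulClosedL l = true) (ws : List (List ℕ)) (hw : wordsOK g1 l ws = true)
    (hn : l.Nodup) : Nat.card (listGroup l hr h1 hc) = l.length := by
  classical
  have h1' : Nat.card (listGroup l hr h1 hc) =
      (ι '' ((listGroup l hr h1 hc : Subgroup ↥Cfsg.Spor.J1) : Set ↥Cfsg.Spor.J1)).ncard := by
    rw [Set.ncard_image_of_injective _ ι_inj]; exact (Nat.card_coe_set_eq _).symm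
  have h2 : ι '' ((listGroup l hr h1 hc : Subgroup ↥Cfsg.Spor.J1) : Set ↥Cfsg.Spor.J1) =
      M7.toMat '' ({m | m ∈ l} : Set M7) := by
    ext x
    constructor
    · rintro ⟨g, hg, rfl⟩
      obtain ⟨m, hm, e⟩ := hg
      exact ⟨m, hm, e.symm⟩
    · rintro ⟨m, hm, rfl⟩
      obtain ⟨g, hg⟩ := exists_of_wordsOK l ws hw m hm
      exact ⟨g, ⟨m, hm, hg⟩, hg⟩
  have h3 : (M7.toMat '' ({m | m ∈ l} : Set M7)).ncard = ({m | m ∈ l} : Set M7).ncard := by
    apply Set.InjOn.ncard_image
    intro a ha b hb hab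
    exact M7.toMat_inj (isRed_of_allRed hr ha) (isRed_of_allRed hr hb) hab
  have h4 : ({m | m ∈ l} : Set M7) = ↑l.toFinset := by ext m; simp
  rw [h1', h2, h3, h4, Set.ncard_coe_finset, List.toFinset_card_of_nodup hn]

/-- an element of `J1` with a given packed matrix (from a word) -/
theorem ι_inv_of_mul (g : ↥Cfsg.Spor.J1) (m mi : M7) (hm : m.IsRed) (e : ι g = m.toMat)
    (h : M7.beq (m.mul mi) M7.one = true) : ι g⁻¹ = mi.toMat := by
  have h2 : m.toMat * mi.toMat = 1 := by
    rw [← M7.toMat_mul _ _ hm, M7.eq_of_beq h, M7.toMat_one]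
  have h3 : ι g * ι g⁻¹ = 1 := by rw [← map_mul, mul_inv_cancel, map_one]
  rw [e] at h3
  calc ι g⁻¹ = (mi.toMat * m.toMat) * ι g⁻¹ := by
        rw [mul_eq_one_comm.1 h2, one_mul]
    _ = mi.toMat * (m.toMat * ι g⁻¹) := by rw [mul_assoc]
    _ = mi.toMat := by rw [h3, mul_one]

end Cfsg.Agent.Lib.Helper60.J1
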