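import Mathlib
import Cfsg.Agent.Lib.Helper94.OPStmt

set_option autoImplicit false

/-! Piece B2P of S5989 (helper60): if `CondP` fails and (`c ≤ m` or `(2d) % c < m`), the element
of `DerEltP` fixes no member. -/

namespace Cfsg.Agent.Lib.Helper60.OPB2P

open Cfsg.Agent.Lib.Helper37.HypStmt (cc IPos)
open Cfsg.Agent.Lib.Helper94.OPStmt

universe u

/-- the arithmetic core -/
theorem arith (d m i : ℕ) (hd : 4 ≤ d) (hm : Odd m) (hmd : m < d) (hi : 0 < i)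
    (H : cc i ≤ m ∨ (2 * d) % cc i < m) (hnc : ¬ CondP d m i) :
    cc i ≤ 2 * d ∧ (0 < (2 * d) % cc i ∨ Odd i ∨ Even (2 * d / i)) ∧
      (2 * d) % cc i < m % cc i ∧ 0 < cc i := by
  obtain ⟨c, hc⟩ : ∃ c, c = cc i := ⟨_, rfl⟩
  unfold CondP at hnc
  rw [← hc] at H hnc ⊢
  have hceven : ∃ a, c = 2 * a := by
    rw [hc]
    unfold cc
    split_ifs with h
    · obtain ⟨a, ha⟩ := h
      exact ⟨a, by omega⟩
    · exact ⟨i, rfl⟩
  have hcpos : 0 < c := by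
    rw [hc]
    unfold cc
    split_ifs <;> omega
  obtain ⟨a, ha⟩ := hceven
  obtain ⟨b, hb⟩ := hm
  obtain ⟨k, hk⟩ : ∃ k, k = (2 * d) % c := ⟨_, rfl⟩
  obtain ⟨mc, hmc⟩ : ∃ mc, mc = m % c := ⟨_, rfl⟩
  rw [← hk, ← hmc] at hnc
  rw [← hk] at H
  rw [← hk, ← hmc]
  have hk_lt : k < c := by rw [hk]; exact Nat.mod_lt _ hcpos
  have hmc_lt : mc < c := by rw [hmc]; exact Nat.mod_lt _ hcpos
  have e1 := Nat.div_add_mod m c
  have e2 := Nat.div_add_mod (2 * d) c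
  rw [← hmc] at e1
  rw [← hk] at e2
  have e3 : c * (m / c) = 2 * (a * (m / c)) := by rw [ha]; ring
  have e4 : c * (2 * d / c) = 2 * (a * (2 * d / c)) := by rw [ha]; ring
  obtain ⟨t1, ht1⟩ : ∃ t1, t1 = c * (m / c) := ⟨_, rfl⟩
  obtain ⟨t2, ht2⟩ : ∃ t2, t2 = c * (2 * d / c) := ⟨_, rfl⟩
  obtain ⟨u1, hu1⟩ : ∃ u1, u1 = a * (m / c) := ⟨_, rfl⟩
  obtain ⟨u2, hu2⟩ : ∃ u2, u2 = a * (2 * d / c) := ⟨_, rfl⟩
  rw [← ht1] at e1 e3
  rw [← ht2] at e2 e4
  rw [← hu1] at e3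
  rw [← hu2] at e4
  have hmc_odd : mc % 2 = 1 := by omega
  have hk_even : k % 2 = 0 := by omega
  have hmcm : m < c → mc = m := fun h => by rw [hmc]; exact Nat.mod_eq_of_lt h
  have hkd : 2 * d < c → k = 2 * d := fun h => by rw [hk]; exact Nat.mod_eq_of_lt h
  have h1 : ¬ (c ≤ m ∧ 0 < mc ∧ mc < k) := by
    intro h
    by_cases hev : Even i
    · have hci : c = i := by rw [hc]; unfold cc; rw [if_pos hev]
      exact hnc (Or.inr ⟨hev, Or.inr ⟨by omega, h.2⟩⟩)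
    · exact hnc (Or.inl ⟨Nat.not_even_iff_odd.1 hev, h⟩)
  refine ⟨?_, ?_, ?_, hcpos⟩
  · rcases H with h | h
    · omega
    · by_contra hcon
      have h5 := hkd (by omega)
      omega
  · by_cases hev : Even i
    · by_cases hk0 : k = 0
      · right; right
        by_contra hne
        exact hnc (Or.inr ⟨hev, Or.inl ⟨hk0, Nat.not_even_iff_odd.1 hne⟩⟩)
      · left; omega
    · right; left
      exact Nat.not_even_iff_odd.1 hev
  · rcases Nat.lt_or_ge m c with h | h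
    · have h5 := hmcm h
      rcases H with h' | h'
      · omega
      · omega
    · by_contra hcon
      exact h1 ⟨h, by omega, by omega⟩

theorem main (hIPos : IPos.{u}) (hDim : DimObsP.{u}) (hDer : DerEltP.{u}) : B2P.{u} := by
  intro F _ _ p _ _ hq d m hd hm hmd W₀ hW₀m hW₀nd r _ hr2 hrp H hnc
  classical
  have hi := hIPos F p r hrp
  obtain ⟨hc2d, hside, hkm, hcpos⟩ := arith d m _ hd hm hmd hi H hnc
  obtain ⟨x, hxΩ, hxr, hfix⟩ := hDer F p hq d (by omega) r hr2 hrp hc2d hside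
  refine ⟨x, hxΩ, hxr, ?_⟩
  intro W hW hStab
  obtain ⟨hWm, hWnd, -⟩ := hW
  have hxiso : x ∈ Cfsg.isometryGroup F (Cfsg.quadFormPlus d F) := by
    unfold Cfsg.Geo.omegaGL at hxΩ
    rw [Subgroup.mem_map] at hxΩ
    obtain ⟨g, -, rfl⟩ := hxΩ
    exact g.2
  have hxr1 : x ^ r = 1 := by
    have h0 := pow_orderOf_eq_one x
    rw [hxr] at h0
    exact h0
  have hdvd := hDim F p hq d r hr2 hrp x hxiso hxr1 W hStab hWnd
  have hf1 : Module.finrank F ↥(W ⊓ FxP (x : Matrix (P d) (P d) F)) ≤ Module.finrank F ↥W :=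
    Submodule.finrank_mono inf_le_left
  have hf2 : Module.finrank F ↥(W ⊓ FxP (x : Matrix (P d) (P d) F)) ≤
      Module.finrank F ↥(FxP (x : Matrix (P d) (P d) F)) :=
    Submodule.finrank_mono inf_le_right
  rw [hWm] at hdvd hf1
  rw [hfix] at hf2
  obtain ⟨f, hf⟩ : ∃ f, f = Module.finrank F ↥(W ⊓ FxP (x : Matrix (P d) (P d) F)) := ⟨_, rfl⟩
  rw [← hf] at hdvd hf1 hf2
  obtain ⟨t, ht⟩ := hdvd
  have hm' : m = f + cc (orderOf ((Fintype.card F : ℕ) : ZMod r)) * t := by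
    rw [← ht]
    omega
  have h3 : m % cc (orderOf ((Fintype.card F : ℕ) : ZMod r)) = f := by
    rw [hm', Nat.add_mul_mod_self_left]
    exact Nat.mod_eq_of_lt (lt_of_le_of_lt hf2 (Nat.mod_lt _ hcpos))
  rw [h3] at hkm
  exact absurd (lt_of_le_of_lt hf2 hkm) (lt_irrefl _)

end Cfsg.Agent.Lib.Helper60.OPB2P
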