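import Mathlib
import Cfsg.Agent.Lib.Helper94.OPStmt
import Cfsg.Agent.S0790

set_option autoImplicit false

/-! Piece NEGSQNON3 of S5989 (helper60): for `d` odd and `q ≡ 3 (mod 4)` no element of `Ω⁺` has
square `-1`, because `-1 ∉ Ω⁺` (S0790). -/

namespace Cfsg.Agent.Lib.Helper60.OPNEGSQNON3

open Cfsg.Agent.Lib.Helper94.OPStmt

universe u

theorem three_pow_odd (k : ℕ) : 3 ^ (2 * k + 1) % 4 = 3 := by
  induction k with
  | zero => norm_num
  | succ n ih =>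
    have h : 3 ^ (2 * (n + 1) + 1) = 9 * 3 ^ (2 * n + 1) := by ring
    rw [h]
    omega

theorem main : NegSqNon3.{u} := by
  intro F _ _ hq4 d hd hodd x hx hxx
  classical
  have hqodd : Odd (Fintype.card F) := by
    rw [Nat.odd_iff]
    omega
  unfold Cfsg.Geo.omegaGL at hx
  rw [Subgroup.mem_map] at hx
  obtain ⟨g, hgΩ, rfl⟩ := hx
  have h1 : ∃ g' : ↥(Cfsg.isometryGroup F (Cfsg.quadFormPlus d F)),
      g' ∈ Cfsg.Omega F (Cfsg.quadFormPlus d F) ∧
      ((g' : Matrix.GeneralLinearGroup (Fin d ⊕ Fin d) F) :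
        Matrix (Fin d ⊕ Fin d) (Fin d ⊕ Fin d) F) = -1 := by
    refine ⟨g * g, Subgroup.mul_mem _ hgΩ hgΩ, ?_⟩
    rw [Subgroup.coe_mul, Units.val_mul]
    exact hxx
  have h2 := (Cfsg.Agent.S0790.result (F := F) rfl hqodd d (by omega)).1 h1
  obtain ⟨k, rfl⟩ := hodd
  have h3 : Fintype.card F ^ (2 * k + 1) % 4 = 3 := by
    rw [Nat.pow_mod, hq4]
    exact three_pow_odd k
  omega

end Cfsg.Agent.Lib.Helper60.OPNEGSQNON3
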