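-- S1353 piece KPRIME (helper60), core: in the nonabelian case `K` has prime order, from the
-- pieces Z0, A0, PrimAct, Tau1 and the statements of S1428, S1446, S1417, S1418, S1350 (and the
-- complement `K ⊔ U` of `M_σ`), taken here as hypotheses.
import Mathlib
import Cfsg.Agent.Lib.Helper55.S53Stmt
import Cfsg.Agent.Lib.Helper23.TypeP

set_option autoImplicit false

namespace Cfsg.Agent.Lib.Helper60.S53KPRIMECore

open Cfsg.Agent.Lib.Helper55.S53Stmt

universe u

/-- `N` normalises `N_σ`. -/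
theorem le_normalizer_sigmaCore {G : Type u} [Group G] (N : Subgroup G) :
    N ≤ Subgroup.normalizer (Cfsg.sigmaCore N : Set G) := by
  intro m hm
  rw [Subgroup.mem_normalizer_iff]
  intro s
  constructor
  · rintro ⟨s', hs', rfl⟩
    refine ⟨⟨m, hm⟩ * s' * ⟨m, hm⟩⁻¹, ?_, rfl⟩
    exact (Cfsg.piCore_normal (Cfsg.sigma N) N).conj_mem s' hs' ⟨m, hm⟩
  · rintro ⟨s', hs', hs'e⟩
    refine ⟨⟨m, hm⟩⁻¹ * s' * ⟨m, hm⟩, ?_, ?_⟩
    · have := (Cfsg.piCore_normal (Cfsg.sigma N) N).conj_mem s' hs' ⟨m, hm⟩⁻¹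
      simpa using this
    · have hs'e' : (s' : G) = m * s * m⁻¹ := hs'e
      show m⁻¹ * (s' : G) * m = s
      rw [hs'e']
      group

/-- complements can be swapped -/
theorem isComplIn_swap {G : Type u} [Group G] {A B M : Subgroup G} (h : Cfsg.IsComplIn A B M) :
    Cfsg.IsComplIn B A M := by
  obtain ⟨hA, hB, hAB, hprod⟩ := h
  refine ⟨hB, hA, by rw [inf_comm]; exact hAB, ?_⟩
  intro m hm
  obtain ⟨a, ha, b, hb, hmab⟩ := hprod m⁻¹ (M.inv_mem hm)
  refine ⟨b⁻¹, Subgroup.inv_mem _ hb, a⁻¹, Subgroup.inv_mem _ ha, ?_⟩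
  rw [← mul_inv_rev, ← hmab, inv_inv]

/-- the index of a complemented subgroup is the order of the complement -/
theorem relIndex_of_isComplIn {G : Type u} [Group G] [Finite G] {A R C : Subgroup G}
    (h : Cfsg.IsComplIn A R C) : A.relIndex C = Nat.card R := by
  have h1 := Cfsg.Agent.Lib.Helper23.TypeP.card_of_isComplIn h
  have h2 : Nat.card (A.subgroupOf C) * (A.subgroupOf C).index = Nat.card C :=
    Subgroup.card_mul_index _
  have h3 : Nat.card (A.subgroupOf C) = Nat.card A :=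
    Nat.card_congr (Subgroup.subgroupOfEquivOfLe h.1).toEquiv
  rw [h3, h1] at h2
  have hpos : 0 < Nat.card A := Nat.card_pos
  exact Nat.eq_of_mul_eq_mul_left hpos h2

/-- a complement of a Hall subgroup has coprime order -/
theorem coprime_of_compl_hall {G : Type u} [Group G] [Finite G] {π : Set ℕ} {E S M : Subgroup G}
    (hE : Cfsg.IsComplIn E S M) (hS : Cfsg.IsPiHallOf π S M) :
    (Nat.card E).Coprime (Nat.card S) := by
  apply Nat.coprime_of_dvd
  intro q hq hq1 hq2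
  obtain ⟨-, hπ, hπ'⟩ := hS
  apply hπ' q hq (hπ q hq hq2)
  rw [relIndex_of_isComplIn (isComplIn_swap hE)]
  exact hq1

theorem core
    (h1428 : ∀ {G : Type u} [Group G] [Finite G], Cfsg.IsMinSimpleOddOrder G →
      ∀ (M : Subgroup G), IsCoatom M → ∀ (E : Subgroup G),
      Cfsg.IsComplIn E (Cfsg.sigmaCore M) M → ∀ (p : ℕ), p ∈ Cfsg.tau1 M →
      ∀ (P : Subgroup G), P ≤ E → Nat.card P = p →
      ∀ (R : Subgroup G), R ≤ E ⊓ Subgroup.centralizer (P : Set G) → (Nat.card R).Prime →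
      Cfsg.sigmaCore M ⊓ Subgroup.centralizer (P : Set G) ≤
        Cfsg.sigmaCore M ⊓ Subgroup.centralizer (R : Set G))
    (h1446 : ∀ {X : Type u} [Group X] [Finite X] (K R M : Subgroup X), K ≠ ⊥ → R ≠ ⊥ →
      K ⊓ R = ⊥ → R ≤ Subgroup.normalizer (K : Set X) →
      (∀ r ∈ R, r ≠ 1 → K ⊓ Subgroup.centralizer ({r} : Set X) = ⊥) →
      Group.IsSolvable ↥(K ⊔ R) → Odd (Nat.card ↥(K ⊔ R)) → M ≠ ⊥ → Group.IsNilpotent M →
      K ≤ Subgroup.normalizer (M : Set X) → R ≤ Subgroup.normalizer (M : Set X) →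
      (Nat.card ↥(K ⊔ R)).Coprime (Nat.card M) → M ⊓ Subgroup.centralizer (K : Set X) = ⊥ →
      (∀ x ∈ R, x ≠ 1 →
        M ⊓ Subgroup.centralizer ({x} : Set X) = M ⊓ Subgroup.centralizer (R : Set X)) →
      (Nat.card R).Prime)
    (h1417 : ∀ {G : Type u} [Group G] [Finite G], Cfsg.IsMinSimpleOddOrder G →
      ∀ (M : Subgroup G), IsCoatom M → ∀ (p : ℕ), p.Prime → p ∈ Cfsg.tau2 M →
      ∀ (A : Subgroup G), A ≤ M → Cfsg.IsElementaryAbelian p A → Nat.card A = p ^ 2 →
      Group.IsNilpotent (Cfsg.sigmaCore M))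
    (h1418 : ∀ {G : Type u} [Group G] [Finite G], Cfsg.IsMinSimpleOddOrder G →
      ∀ (M : Subgroup G), IsCoatom M → ∀ (E : Subgroup G),
      Cfsg.IsComplIn E (Cfsg.sigmaCore M) M → ∀ (p : ℕ), p.Prime → p ∈ Cfsg.tau2 M →
      ∀ (A : Subgroup G), A ≤ E → Cfsg.IsElementaryAbelian p A → Nat.card A = p ^ 2 →
      E ≤ Subgroup.normalizer (A : Set G))
    (h1350 : ∀ {G : Type u} [Group G] [Finite G], Cfsg.IsMinSimpleOddOrder G →
      ∀ (M : Subgroup G), IsCoatom M → Cfsg.IsPiHallOf (Cfsg.sigma M) (Cfsg.sigmaCore M) M)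
    (hcomplE : ∀ {G : Type u} [Group G] [Finite G], Cfsg.IsMinSimpleOddOrder G →
      ∀ (M K U : Subgroup G), IsCoatom M → Cfsg.IsSigmaDecomposition M K U →
      Cfsg.IsComplIn (K ⊔ U) (Cfsg.sigmaCore M) M)
    (hZ0 : Z0.{u}) (hA0 : A0.{u}) (hPA : PrimAct.{u}) (hT1 : Tau1.{u}) : KPrime.{u} := by
  intro G _ _ hG M K U A X k p r c hnonab
  have hM := c.coatom
  have hdec := c.dec
  have hE := hcomplE hG M K U hM hdec
  have hEM : K ⊔ U ≤ M := hE.1
  have hKE : K ≤ K ⊔ U := le_sup_left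
  have hKM : K ≤ M := hKE.trans hEM
  have hAM : A ≤ M := c.AE.trans hEM
  have hpp := c.pp
  have hrp := c.rp
  have hk1 : k ≠ 1 := by
    intro h
    have h1 := c.ko
    rw [h, orderOf_one] at h1
    exact hpp.one_lt.ne h1
  -- K is commutative
  have hKcomm : ∀ a ∈ K, ∀ b ∈ K, a * b = b * a := by
    intro a ha b hb
    have hcyc := hdec.cyclic
    obtain ⟨g, hg⟩ := IsCyclic.exists_generator (α := K)
    obtain ⟨i, hi⟩ := Subgroup.mem_zpowers_iff.mp (hg ⟨a, ha⟩)
    obtain ⟨j, hj⟩ := Subgroup.mem_zpowers_iff.mp (hg ⟨b, hb⟩)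
    have h1 : (⟨a, ha⟩ : K) * ⟨b, hb⟩ = ⟨b, hb⟩ * ⟨a, ha⟩ := by
      rw [← hi, ← hj, ← zpow_add, ← zpow_add, add_comm]
    exact congrArg Subtype.val h1
  have hpr : p ≠ r := by
    rintro rfl
    exact c.r2.2.2.2 c.p1.2.2.2.2
  have hEA : K ⊔ U ≤ Subgroup.normalizer (A : Set G) :=
    h1418 hG M hM (K ⊔ U) hE r hrp c.r2 A c.AE c.Ael c.Ac
  have hkNA : k ∈ Subgroup.normalizer (A : Set G) := hEA (hKE c.kK)
  obtain ⟨Z, hZA, hZc, hZX, hZk, hZnorm⟩ :=
    hZ0 A X k p r hpp hrp hpr c.ko c.Ael c.Ac hkNA c.Xc c.fix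
  obtain ⟨-, -, hA0reg⟩ := hA0 hG M K U A X k p r c hnonab
  have hMσZ : Cfsg.sigmaCore M ⊓ Subgroup.centralizer (Z : Set G) = ⊥ := hA0reg Z hZA hZc hZX
  have hrfact : Fact r.Prime := ⟨hrp⟩
  have hprime : (Nat.card K).Prime := by
    apply h1446 Z K (Cfsg.sigmaCore M)
    · intro h
      rw [h, Subgroup.card_bot] at hZc
      exact hrp.one_lt.ne hZc
    · intro h
      have h1 := c.kK
      rw [h, Subgroup.mem_bot] at h1
      exact hk1 h1
    · rw [eq_bot_iff]
      intro z hz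
      have hzZ : z ∈ Z := hz.1
      have hzK : z ∈ K := hz.2
      rw [← hZk]
      refine ⟨hzZ, ?_⟩
      show z ∈ Subgroup.centralizer ({k} : Set G)
      rw [Subgroup.mem_centralizer_iff]
      intro y hy
      have hyk : y = k := hy
      rw [hyk]
      exact hKcomm k c.kK z hzK
    · intro g hg
      exact hZnorm g (hEA (hKE hg)) (hKcomm g hg k c.kK)
    · intro y hy hy1
      rw [eq_bot_iff]
      intro z hz
      rw [Subgroup.mem_bot]
      by_contra hz1
      obtain ⟨q, hq, hqy⟩ := Nat.exists_prime_and_dvd (n := orderOf y)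
        (by rwa [Ne, orderOf_eq_one_iff])
      have hoy : orderOf y ≠ 0 := (orderOf_pos y).ne'
      have hoy1 : orderOf (y ^ (orderOf y / q)) = q := orderOf_pow_orderOf_div hoy hqy
      have hy1K : y ^ (orderOf y / q) ∈ K := K.pow_mem hy _
      have hy1ne : y ^ (orderOf y / q) ≠ 1 := by
        intro h
        rw [h, orderOf_one] at hoy1
        exact hq.one_lt.ne hoy1
      have hqK : q ∣ Nat.card K := by
        rw [← hoy1]
        exact Subgroup.orderOf_dvd_natCard K hy1K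
      have hqτ : q ∈ Cfsg.tau1 M := hT1 hG M K U hM hdec q hq hqK
      have hz2 : z ∈ Subgroup.centralizer ({y} : Set G) := hz.2
      have hyz : Commute y z := Subgroup.mem_centralizer_iff.mp hz2 y rfl
      have hZcent : Z ≤ Subgroup.centralizer
          ((Subgroup.zpowers (y ^ (orderOf y / q)) : Subgroup G) : Set G) := by
        intro w hw
        have hw' : (⟨w, hw⟩ : Z) ∈ Subgroup.zpowers (⟨z, hz.1⟩ : Z) :=
          mem_zpowers_of_prime_card hZc (fun h => hz1 (congrArg Subtype.val h))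
        obtain ⟨i, hi⟩ := Subgroup.mem_zpowers_iff.mp hw'
        have hi' : z ^ i = w := by
          have := congrArg Subtype.val hi
          simpa using this
        rw [Subgroup.mem_centralizer_iff]
        intro v hv
        obtain ⟨j, rfl⟩ := Subgroup.mem_zpowers_iff.mp hv
        rw [← hi']
        exact (((hyz.pow_left _).zpow_left j).zpow_right i).eq
      have hS := h1428 hG M hM (K ⊔ U) hE q hqτ (Subgroup.zpowers (y ^ (orderOf y / q)))
        (by rw [Subgroup.zpowers_le]; exact hKE hy1K) (by rw [Nat.card_zpowers, hoy1]) Z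
        (le_inf (hZA.trans c.AE) hZcent) (by rw [hZc]; exact hrp)
      rw [hMσZ] at hS
      have h1 := hPA hG M K U hM hdec (y ^ (orderOf y / q)) hy1K hy1ne
      have h2 := hPA hG M K U hM hdec k c.kK hk1
      apply c.Ck
      rw [h2, ← h1, eq_bot_iff]
      refine le_trans ?_ hS
      intro m hm
      have hm1 : m ∈ Cfsg.sigmaCore M := hm.1
      have hm2 : m ∈ Subgroup.centralizer ({y ^ (orderOf y / q)} : Set G) := hm.2
      refine ⟨hm1, ?_⟩
      show m ∈ Subgroup.centralizer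
        ((Subgroup.zpowers (y ^ (orderOf y / q)) : Subgroup G) : Set G)
      rw [Subgroup.mem_centralizer_iff]
      intro v hv
      obtain ⟨j, rfl⟩ := Subgroup.mem_zpowers_iff.mp hv
      have h3 : Commute (y ^ (orderOf y / q)) m :=
        Subgroup.mem_centralizer_iff.mp hm2 (y ^ (orderOf y / q)) rfl
      exact (h3.zpow_left j).eq
    · apply hG.2.2.2
      intro h
      have h1 : Z ⊔ K ≤ M := sup_le (hZA.trans hAM) hKM
      rw [h] at h1
      exact hM.1 (top_le_iff.mp h1)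
    · exact Odd.of_dvd_nat hG.1 (Subgroup.card_subgroup_dvd_card _)
    · intro h
      apply c.Ck
      rw [h, bot_inf_eq]
    · exact h1417 hG M hM r hrp c.r2 A hAM c.Ael c.Ac
    · exact (hZA.trans hAM).trans (le_normalizer_sigmaCore M)
    · exact hKM.trans (le_normalizer_sigmaCore M)
    · have hcop : (Nat.card ↥(K ⊔ U)).Coprime (Nat.card ↥(Cfsg.sigmaCore M)) :=
        coprime_of_compl_hall hE (h1350 hG M hM)
      exact Nat.Coprime.coprime_dvd_left
        (Subgroup.card_dvd_of_le (sup_le (hZA.trans c.AE) hKE)) hcop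
    · exact hMσZ
    · intro x hx hx1
      exact hPA hG M K U hM hdec x hx hx1
  have hpK : p ∣ Nat.card K := by
    rw [← c.ko]
    exact Subgroup.orderOf_dvd_natCard K c.kK
  exact ((Nat.prime_dvd_prime_iff_eq hpp hprime).mp hpK).symm

end Cfsg.Agent.Lib.Helper60.S53KPRIMECore
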