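import Mathlib
import Cfsg.Agent.Lib.Helper41.SpFStmt

/-!
# S5975, piece `INV4P`: an involution `x ≠ ± 1` of `Sp_4` (odd characteristic) anticommutes with a
self-adjoint `J'` with `J' ^ 2 = l`
-/

set_option autoImplicit false
set_option linter.unusedSimpArgs false

namespace Cfsg.Agent.Lib.Helper60.SpFINV4P

open Matrix
open Cfsg.Agent.Lib.Helper40.SympConj
open Cfsg.Agent.Lib.Helper41.SpFStmt

universe u

variable {F : Type u} [Field F]

/-- the symplectic form -/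
def Bf (u v : Fin 2 ⊕ Fin 2 → F) : F := u ⬝ᵥ (Matrix.J (Fin 2) F *ᵥ v)

theorem Bf_add_left (u v w : Fin 2 ⊕ Fin 2 → F) : Bf (u + v) w = Bf u w + Bf v w := by
  unfold Bf; rw [add_dotProduct]

theorem Bf_smul_left (c : F) (u w : Fin 2 ⊕ Fin 2 → F) : Bf (c • u) w = c * Bf u w := by
  unfold Bf; rw [smul_dotProduct, smul_eq_mul]

theorem Bf_add_right (u v w : Fin 2 ⊕ Fin 2 → F) : Bf u (v + w) = Bf u v + Bf u w := by
  unfold Bf; rw [Matrix.mulVec_add, dotProduct_add]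

theorem Bf_smul_right (c : F) (u w : Fin 2 ⊕ Fin 2 → F) : Bf u (c • w) = c * Bf u w := by
  unfold Bf; rw [Matrix.mulVec_smul, dotProduct_smul, smul_eq_mul]

theorem Bf_sub_left (u v w : Fin 2 ⊕ Fin 2 → F) : Bf (u - v) w = Bf u w - Bf v w := by
  unfold Bf; rw [sub_dotProduct]

theorem Bf_sub_right (u v w : Fin 2 ⊕ Fin 2 → F) : Bf u (v - w) = Bf u v - Bf u w := by
  unfold Bf; rw [Matrix.mulVec_sub, dotProduct_sub]

theorem Bf_neg_right (u w : Fin 2 ⊕ Fin 2 → F) : Bf u (-w) = -Bf u w := by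
  unfold Bf; rw [Matrix.mulVec_neg, dotProduct_neg]

theorem Bf_zero_left (w : Fin 2 ⊕ Fin 2 → F) : Bf (0 : Fin 2 ⊕ Fin 2 → F) w = 0 := by
  unfold Bf; rw [zero_dotProduct]

theorem Bf_zero_right (w : Fin 2 ⊕ Fin 2 → F) : Bf w (0 : Fin 2 ⊕ Fin 2 → F) = 0 := by
  unfold Bf; rw [Matrix.mulVec_zero, dotProduct_zero]

theorem Bf_self (v : Fin 2 ⊕ Fin 2 → F) : Bf v v = 0 := J_alt v

theorem Bf_skew (u v : Fin 2 ⊕ Fin 2 → F) : Bf u v = -Bf v u := by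
  have h := Bf_self (u + v)
  rw [Bf_add_left, Bf_add_right, Bf_add_right, Bf_self, Bf_self] at h
  linear_combination h

theorem Bf_adj (M : Mat 2 F) (u v : Fin 2 ⊕ Fin 2 → F) :
    Bf (M *ᵥ u) v = Bf u (sadj M *ᵥ v) := adjoint_rel M u v

theorem Bf_nondeg (u : Fin 2 ⊕ Fin 2 → F) (h : ∀ w, Bf u w = 0) : u = 0 := eq_zero_of_J u h

theorem mat_ext (M N : Mat 2 F) (h : ∀ v, M *ᵥ v = N *ᵥ v) : M = N := by
  apply Matrix.toLin'.injective
  apply LinearMap.ext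
  intro v
  rw [Matrix.toLin'_apply, Matrix.toLin'_apply]
  exact h v

theorem R_mulVec (a b v : Fin 2 ⊕ Fin 2 → F) :
    Matrix.vecMulVec a (Matrix.J (Fin 2) F *ᵥ b) *ᵥ v = Bf v b • a := by
  funext i
  rw [Matrix.vecMulVec_mulVec]
  unfold Bf
  rw [dotProduct_comm]
  simp [mul_comm]

/-- a hyperbolic pair in the `ε`-eigenspace of `x` -/
theorem hyp_pair (h2 : (2 : F) ≠ 0) (x : Mat 2 F) (hsx : sadj x = x) (hxx : x * x = 1) (ε : F)
    (hε : ε * ε = 1) (hne : (1 : Mat 2 F) + ε • x ≠ 0) :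
    ∃ e f : Fin 2 ⊕ Fin 2 → F, x *ᵥ e = ε • e ∧ x *ᵥ f = ε • f ∧ Bf e f = 1 := by
  have hx : ∀ w, x *ᵥ ((1 + ε • x) *ᵥ w) = ε • ((1 + ε • x) *ᵥ w) := by
    intro w
    rw [Matrix.mulVec_mulVec, ← Matrix.smul_mulVec]
    congr 1
    rw [mul_add, mul_one, smul_add, Matrix.mul_smul, hxx, smul_smul, hε, one_smul, add_comm]
  obtain ⟨w, hw⟩ : ∃ w, (1 + ε • x) *ᵥ w ≠ 0 := by
    by_contra hcon
    apply hne
    apply mat_ext
    intro w
    rw [Matrix.zero_mulVec]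
    by_contra hw
    exact hcon ⟨w, hw⟩
  obtain ⟨v, hv⟩ : ∃ v, Bf ((1 + ε • x) *ᵥ w) v ≠ 0 := by
    by_contra hcon
    apply hw
    apply Bf_nondeg
    intro v
    by_contra hv
    exact hcon ⟨v, hv⟩
  have hB : Bf ((1 + ε • x) *ᵥ w) ((1 + ε • x) *ᵥ v) = 2 * Bf ((1 + ε • x) *ᵥ w) v := by
    have h1 : Bf ((1 + ε • x) *ᵥ w) (x *ᵥ v) = Bf (x *ᵥ ((1 + ε • x) *ᵥ w)) v := by
      rw [Bf_adj x ((1 + ε • x) *ᵥ w) v, hsx]
    have h3 : (1 + ε • x) *ᵥ v = v + ε • (x *ᵥ v) := by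
      rw [Matrix.add_mulVec, Matrix.one_mulVec, Matrix.smul_mulVec]
    rw [h3, Bf_add_right, Bf_smul_right, h1, hx w, Bf_smul_left]
    linear_combination (Bf ((1 + ε • x) *ᵥ w) v) * hε
  refine ⟨(1 + ε • x) *ᵥ w, (2 * Bf ((1 + ε • x) *ᵥ w) v)⁻¹ • ((1 + ε • x) *ᵥ v), hx w, ?_, ?_⟩
  · rw [Matrix.mulVec_smul, hx v, smul_comm]
  · rw [Bf_smul_right, hB, inv_mul_cancel₀ (mul_ne_zero h2 hv)]

theorem main : Cfsg.Agent.Lib.Helper41.SpFStmt.Inv4P.{u} := by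
  intro F _ _ h2 l hl x hx hxx hx1 hxm1
  have hsx : sadj x = x := by
    calc sadj x = sadj x * (x * x) := by rw [hxx, mul_one]
      _ = (sadj x * x) * x := by rw [mul_assoc]
      _ = x := by rw [hx, one_mul]
  obtain ⟨e₁, f₁, hxe₁, hxf₁, hef₁⟩ := hyp_pair h2 x hsx hxx 1 (one_mul 1) (by
    intro h
    apply hxm1
    rw [one_smul] at h
    exact eq_neg_of_add_eq_zero_right h)
  obtain ⟨e₂, f₂, hxe₂, hxf₂, hef₂⟩ := hyp_pair h2 x hsx hxx (-1) (by ring) (by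
    intro h
    apply hx1
    rw [neg_smul, one_smul, ← sub_eq_add_neg, sub_eq_zero] at h
    exact h.symm)
  rw [one_smul] at hxe₁ hxf₁
  rw [neg_smul, one_smul] at hxe₂ hxf₂
  -- orthogonality of the two eigenspaces
  have horth : ∀ u v : Fin 2 ⊕ Fin 2 → F, x *ᵥ u = u → x *ᵥ v = -v → Bf u v = 0 := by
    intro u v hu hv
    have h1 : Bf (x *ᵥ u) v = Bf u (x *ᵥ v) := by rw [Bf_adj x u v, hsx]
    rw [hu, hv, Bf_neg_right] at h1
    have h3 : (2 : F) * Bf u v = 0 := by linear_combination h1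
    rcases mul_eq_zero.1 h3 with h | h
    · exact absurd h h2
    · exact h
  have q11 : Bf e₁ e₁ = 0 := Bf_self e₁
  have q12 : Bf e₁ f₁ = 1 := hef₁
  have q13 : Bf e₁ e₂ = 0 := horth _ _ hxe₁ hxe₂
  have q14 : Bf e₁ f₂ = 0 := horth _ _ hxe₁ hxf₂
  have q21 : Bf f₁ e₁ = -1 := by rw [Bf_skew, q12]
  have q22 : Bf f₁ f₁ = 0 := Bf_self f₁
  have q23 : Bf f₁ e₂ = 0 := horth _ _ hxf₁ hxe₂
  have q24 : Bf f₁ f₂ = 0 := horth _ _ hxf₁ hxf₂
  have q31 : Bf e₂ e₁ = 0 := by rw [Bf_skew, q13, neg_zero]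
  have q32 : Bf e₂ f₁ = 0 := by rw [Bf_skew, q23, neg_zero]
  have q33 : Bf e₂ e₂ = 0 := Bf_self e₂
  have q34 : Bf e₂ f₂ = 1 := hef₂
  have q41 : Bf f₂ e₁ = 0 := by rw [Bf_skew, q14, neg_zero]
  have q42 : Bf f₂ f₁ = 0 := by rw [Bf_skew, q24, neg_zero]
  have q43 : Bf f₂ e₂ = -1 := by rw [Bf_skew, q34]
  have q44 : Bf f₂ f₂ = 0 := Bf_self f₂
  -- the four vectors form a basis
  have hli : LinearIndependent F ![e₁, f₁, e₂, f₂] := by
    rw [Fintype.linearIndependent_iff]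
    intro g hg
    rw [Fin.sum_univ_four] at hg
    have hg' : g 0 • e₁ + g 1 • f₁ + g 2 • e₂ + g 3 • f₂ = 0 := hg
    have h0 := congrArg (fun z => Bf z f₁) hg'
    have h1 := congrArg (fun z => Bf z e₁) hg'
    have h2' := congrArg (fun z => Bf z f₂) hg'
    have h3 := congrArg (fun z => Bf z e₂) hg'
    simp only [Bf_add_left, Bf_smul_left, Bf_zero_left, q11, q12, q13, q14, q21, q22, q23, q24,
      q31, q32, q33, q34, q41, q42, q43, q44, mul_zero, mul_one, add_zero, zero_add, mul_neg,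
      neg_eq_zero] at h0 h1 h2' h3
    intro i
    fin_cases i
    · exact h0
    · exact h1
    · exact h2'
    · exact h3
  have hspan : Submodule.span F (Set.range ![e₁, f₁, e₂, f₂]) = ⊤ :=
    hli.span_eq_top_of_card_eq_finrank' (by simp)
  have hperp : ∀ w : Fin 2 ⊕ Fin 2 → F, Bf w e₁ = 0 → Bf w f₁ = 0 → Bf w e₂ = 0 → Bf w f₂ = 0 →
      w = 0 := by
    intro w h1 h2' h3 h4
    apply Bf_nondeg
    intro u
    have hu : u ∈ Submodule.span F (Set.range ![e₁, f₁, e₂, f₂]) := by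
      rw [hspan]
      exact Submodule.mem_top
    induction hu using Submodule.span_induction with
    | mem y hy =>
      obtain ⟨i, rfl⟩ := hy
      fin_cases i
      · exact h1
      · exact h2'
      · exact h3
      · exact h4
    | zero => exact Bf_zero_right w
    | add a b _ _ ha hb => rw [Bf_add_right, ha, hb, add_zero]
    | smul c a _ ha => rw [Bf_smul_right, ha, mul_zero]
  have hC : ∀ v : Fin 2 ⊕ Fin 2 → F,
      Bf v f₁ • e₁ - Bf v e₁ • f₁ + Bf v f₂ • e₂ - Bf v e₂ • f₂ = v := by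
    intro v
    rw [← sub_eq_zero]
    apply hperp <;>
      simp only [Bf_sub_left, Bf_add_left, Bf_smul_left, q11, q12, q13, q14, q21, q22, q23, q24,
        q31, q32, q33, q34, q41, q42, q43, q44] <;> ring
  -- the matrix
  obtain ⟨J', hJdef⟩ : ∃ J' : Mat 2 F, J' =
      Matrix.vecMulVec e₂ (Matrix.J (Fin 2) F *ᵥ f₁) - l • Matrix.vecMulVec f₂ (Matrix.J (Fin 2) F *ᵥ e₁)
        + l • Matrix.vecMulVec e₁ (Matrix.J (Fin 2) F *ᵥ f₂)
        - Matrix.vecMulVec f₁ (Matrix.J (Fin 2) F *ᵥ e₂) := ⟨_, rfl⟩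
  have hJ : ∀ v : Fin 2 ⊕ Fin 2 → F, J' *ᵥ v =
      Bf v f₁ • e₂ - (l * Bf v e₁) • f₂ + (l * Bf v f₂) • e₁ - Bf v e₂ • f₁ := by
    intro v
    rw [hJdef, Matrix.sub_mulVec, Matrix.add_mulVec, Matrix.sub_mulVec, Matrix.smul_mulVec,
      Matrix.smul_mulVec, R_mulVec, R_mulVec, R_mulVec, R_mulVec, smul_smul, smul_smul]
  have hB1 : ∀ v, Bf (J' *ᵥ v) f₁ = l * Bf v f₂ := by
    intro v
    rw [hJ]
    simp only [Bf_sub_left, Bf_add_left, Bf_smul_left, q11, q12, q13, q14, q21, q22, q23, q24,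
      q31, q32, q33, q34, q41, q42, q43, q44]
    ring
  have hB2 : ∀ v, Bf (J' *ᵥ v) e₁ = Bf v e₂ := by
    intro v
    rw [hJ]
    simp only [Bf_sub_left, Bf_add_left, Bf_smul_left, q11, q12, q13, q14, q21, q22, q23, q24,
      q31, q32, q33, q34, q41, q42, q43, q44]
    ring
  have hB3 : ∀ v, Bf (J' *ᵥ v) f₂ = Bf v f₁ := by
    intro v
    rw [hJ]
    simp only [Bf_sub_left, Bf_add_left, Bf_smul_left, q11, q12, q13, q14, q21, q22, q23, q24,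
      q31, q32, q33, q34, q41, q42, q43, q44]
    ring
  have hB4 : ∀ v, Bf (J' *ᵥ v) e₂ = l * Bf v e₁ := by
    intro v
    rw [hJ]
    simp only [Bf_sub_left, Bf_add_left, Bf_smul_left, q11, q12, q13, q14, q21, q22, q23, q24,
      q31, q32, q33, q34, q41, q42, q43, q44]
    ring
  refine ⟨J', ?_, ?_, ?_⟩
  · -- `J' * J' = l • 1`
    apply mat_ext
    intro v
    rw [← Matrix.mulVec_mulVec, hJ (J' *ᵥ v), hB1, hB2, hB3, hB4, Matrix.smul_mulVec,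
      Matrix.one_mulVec]
    conv_rhs => rw [← hC v]
    funext i
    simp only [Pi.add_apply, Pi.sub_apply, Pi.smul_apply, smul_eq_mul]
    ring
  · -- self-adjoint
    apply eq_of_form
    intro u w
    show Bf u (sadj J' *ᵥ w) = Bf u (J' *ᵥ w)
    rw [← Bf_adj, hJ u, hJ w]
    simp only [Bf_sub_left, Bf_add_left, Bf_smul_left, Bf_sub_right, Bf_add_right, Bf_smul_right]
    rw [Bf_skew e₂ w, Bf_skew f₂ w, Bf_skew e₁ w, Bf_skew f₁ w]
    ring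
  · -- anticommutes with `x`
    apply mat_ext
    intro v
    have a1 : Bf (x *ᵥ v) f₁ = Bf v f₁ := by rw [Bf_adj x v f₁, hsx, hxf₁]
    have a2 : Bf (x *ᵥ v) e₁ = Bf v e₁ := by rw [Bf_adj x v e₁, hsx, hxe₁]
    have a3 : Bf (x *ᵥ v) f₂ = -Bf v f₂ := by rw [Bf_adj x v f₂, hsx, hxf₂, Bf_neg_right]
    have a4 : Bf (x *ᵥ v) e₂ = -Bf v e₂ := by rw [Bf_adj x v e₂, hsx, hxe₂, Bf_neg_right]
    rw [Matrix.neg_mulVec, ← Matrix.mulVec_mulVec, ← Matrix.mulVec_mulVec, hJ (x *ᵥ v), hJ v,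
      a1, a2, a3, a4]
    simp only [Matrix.mulVec_sub, Matrix.mulVec_add, Matrix.mulVec_smul, hxe₁, hxf₁, hxe₂, hxf₂]
    funext i
    simp only [Pi.add_apply, Pi.sub_apply, Pi.smul_apply, Pi.neg_apply, smul_eq_mul]
    ring

end Cfsg.Agent.Lib.Helper60.SpFINV4P
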