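import Mathlib
import Cfsg.Agent.Lib.Helper41.SpFStmt

/-!
# S5975, piece `ORD2`
-/

set_option autoImplicit false

namespace Cfsg.Agent.Lib.Helper60.SpFORD2

theorem main : Cfsg.Agent.Lib.Helper41.SpFStmt.Ord2 := by
  intro q r hr hrq h2 hn2
  have : Fact r.Prime := ⟨hr⟩
  obtain ⟨e, he⟩ := h2
  have hord : orderOf ((q : ZMod r) ^ 2) = e := by
    rw [orderOf_pow' _ two_ne_zero, he]
    have hg : (2 * e).gcd 2 = 2 := Nat.gcd_eq_right (dvd_mul_right 2 e)
    rw [hg]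
    exact Nat.mul_div_cancel_left e (by norm_num)
  rw [hord] at hn2
  have hodd : Odd e := Nat.not_even_iff_odd.1 (fun h => hn2 (even_iff_two_dvd.1 h))
  refine ⟨e, hodd, ?_⟩
  have hpow : ((q : ZMod r) ^ e) ^ 2 = 1 := by
    rw [← pow_mul, mul_comm, ← he]
    exact pow_orderOf_eq_one _
  have hfac : ((q : ZMod r) ^ e - 1) * ((q : ZMod r) ^ e + 1) = 0 := by
    have : ((q : ZMod r) ^ e - 1) * ((q : ZMod r) ^ e + 1) = ((q : ZMod r) ^ e) ^ 2 - 1 := by ring
    rw [this, hpow, sub_self]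
  rcases mul_eq_zero.1 hfac with h | h
  · exfalso
    have h1 : (q : ZMod r) ^ e = 1 := sub_eq_zero.1 h
    have h3 := orderOf_dvd_of_pow_eq_one h1
    rw [he] at h3
    have hepos : 0 < e := hodd.pos
    have := Nat.le_of_dvd hepos h3
    omega
  · rw [← ZMod.natCast_eq_zero_iff]
    push_cast
    exact h

end Cfsg.Agent.Lib.Helper60.SpFORD2
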