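import Mathlib
import Cfsg.Agent.Lib.Helper41.SpFStmt

/-!
# S5975, piece `ORDCASE`
-/

set_option autoImplicit false

namespace Cfsg.Agent.Lib.Helper60.SpFORDCASE

theorem main : Cfsg.Agent.Lib.Helper41.SpFStmt.OrdCase := by
  intro q d r i hq hr hrq hi hdvd
  have : Fact r.Prime := ⟨hr⟩
  rcases (Nat.Prime.dvd_mul hr).1 hdvd with h | h
  · exact absurd (hr.dvd_of_dvd_pow h) hrq
  · obtain ⟨j, hj, hjd⟩ := (Nat.Prime.prime hr).exists_mem_finset_dvd h
    have hjlt : j < d := Finset.mem_range.1 hj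
    have hpos : 1 ≤ q ^ (2 * (j + 1)) := Nat.one_le_pow _ _ (by omega)
    have hz : ((q ^ (2 * (j + 1)) - 1 : ℕ) : ZMod r) = 0 := (ZMod.natCast_eq_zero_iff _ _).2 hjd
    rw [Nat.cast_sub hpos] at hz
    push_cast at hz
    have hpow : (q : ZMod r) ^ (2 * (j + 1)) = 1 := sub_eq_zero.1 hz
    have hidvd : i ∣ 2 * (j + 1) := by
      rw [hi]
      exact orderOf_dvd_of_pow_eq_one hpow
    by_cases hev : Even i
    · right
      refine ⟨hev, ?_⟩
      have := Nat.le_of_dvd (by omega) hidvd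
      omega
    · left
      have hio : Odd i := Nat.not_even_iff_odd.1 hev
      refine ⟨hio, ?_⟩
      have hcop : Nat.Coprime i 2 := (Nat.coprime_two_left.2 hio).symm
      have := Nat.le_of_dvd (by omega) (hcop.dvd_of_dvd_mul_left hidvd)
      omega

end Cfsg.Agent.Lib.Helper60.SpFORDCASE
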