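import Mathlib
import Cfsg.Agent.Lib.Helper41.SpFStmt

/-!
# S5975, piece `ORDK`
-/

set_option autoImplicit false

namespace Cfsg.Agent.Lib.Helper60.SpFORDK

theorem main : Cfsg.Agent.Lib.Helper41.SpFStmt.OrdK := by
  intro q r i hr hr2 hrq hi
  have : Fact r.Prime := ⟨hr⟩
  have hq0 : (q : ZMod r) ≠ 0 := by
    intro h
    exact hrq ((ZMod.natCast_eq_zero_iff q r).1 h)
  have hdvd : i ∣ r - 1 := by
    rw [hi]
    exact orderOf_dvd_of_pow_eq_one (ZMod.pow_card_sub_one_eq_one hq0)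
  have hodd : Odd r := by
    rcases hr.eq_two_or_odd' with h | h
    · exact absurd h hr2
    · exact h
  have hr1 : 0 < r - 1 := by
    have := hr.two_le
    omega
  have h2 : 2 ∣ r - 1 := by
    obtain ⟨t, ht⟩ := hodd
    exact ⟨t, by omega⟩
  split_ifs with hev
  · exact Nat.le_of_dvd hr1 hdvd
  · have hio : Odd i := Nat.not_even_iff_odd.1 hev
    have hcop : Nat.Coprime 2 i := Nat.coprime_two_left.2 hio
    exact Nat.le_of_dvd hr1 (hcop.mul_dvd_of_dvd_of_dvd h2 hdvd)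

end Cfsg.Agent.Lib.Helper60.SpFORDK
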