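import Mathlib
import Cfsg.Agent.Lib.Helper41.SpFStmt

/-!
# S5975, piece `ORDSQ`
-/

set_option autoImplicit false

namespace Cfsg.Agent.Lib.Helper60.SpFORDSQ

theorem main : Cfsg.Agent.Lib.Helper41.SpFStmt.OrdSq := by
  intro q r k hr hrq hk hk2 hdvd
  rw [orderOf_pow' _ two_ne_zero]
  have hg : 0 < (orderOf (q : ZMod r)).gcd 2 := Nat.gcd_pos_of_pos_right _ (by norm_num)
  obtain ⟨c, hc⟩ := Nat.gcd_dvd_left (orderOf (q : ZMod r)) 2
  have h2 : orderOf (q : ZMod r) / (orderOf (q : ZMod r)).gcd 2 = c :=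
    Nat.div_eq_of_eq_mul_right hg hc
  rw [h2]
  have hdvd' : k ∣ (orderOf (q : ZMod r)).gcd 2 * c := hc ▸ hdvd
  replace hdvd := hdvd'
  rcases (Nat.Prime.dvd_mul hk).1 hdvd with h | h
  · exfalso
    have h3 : k ∣ 2 := h.trans (Nat.gcd_dvd_right _ _)
    have h4 := Nat.le_of_dvd (by norm_num) h3
    have h5 := hk.two_le
    omega
  · exact h

end Cfsg.Agent.Lib.Helper60.SpFORDSQ
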