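import Mathlib
import Cfsg.Agent.Lib.Helper44.TPStmt
import Cfsg.Agent.Lib.Helper44.NegPairs

set_option autoImplicit false

/-! Piece INVBAD1 of S5973 (helper60): for `q ≡ 3 (mod 4)` the product of the reflections in
`e₀ + f₀` and `e₁ + f₁` is a non-scalar involution of `Ω⁺` fixing no totally singular
`(d-1)`-space. -/

namespace Cfsg.Agent.Lib.Helper60.TPINVBAD1

open Module QuadraticMap Matrix
open Cfsg.Agent.Lib.Helper44.TPStmt
open Cfsg.Agent.Lib.Helper44.QSpace Cfsg.Agent.Lib.Helper44.OGroup Cfsg.Agent.Lib.Helper44.OMat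
open Cfsg.Agent.Lib.Helper44.NegPairs

universe u

variable {F : Type u} [Field F]

theorem mem_Fx {d : ℕ} (x : Matrix (J d) (J d) F) (v : J d → F) :
    v ∈ Fx x ↔ x *ᵥ v = v := by
  unfold Fx
  rw [LinearMap.mem_ker, LinearMap.sub_apply, Matrix.toLin'_apply, LinearMap.id_apply,
    sub_eq_zero]

theorem mem_Fm {d : ℕ} (x : Matrix (J d) (J d) F) (v : J d → F) :
    v ∈ Fm x ↔ x *ᵥ v = -v := by
  unfold Fm
  rw [LinearMap.mem_ker, LinearMap.add_apply, Matrix.toLin'_apply, LinearMap.id_apply,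
    add_eq_zero_iff_eq_neg]

theorem polar_plus (d : ℕ) (x y : J d → F) :
    QuadraticMap.polar (Cfsg.quadFormPlus d F) x y =
      ∑ i : Fin d, (x (Sum.inl i) * y (Sum.inr i) + x (Sum.inr i) * y (Sum.inl i)) := by
  simp only [QuadraticMap.polar, Cfsg.quadFormPlus, Pi.add_apply]
  rw [← Finset.sum_sub_distrib, ← Finset.sum_sub_distrib]
  apply Finset.sum_congr rfl
  intro i _
  ring

/-- the vector `e_i + f_i` -/
def uv (d : ℕ) (F : Type u) [Field F] (i : Fin d) : J d → F :=
  Pi.single (Sum.inl i) 1 + Pi.single (Sum.inr i) 1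

theorem uv_inl (d : ℕ) (i k : Fin d) : uv d F i (Sum.inl k) = if k = i then 1 else 0 := by
  simp [uv, Pi.single_apply]

theorem uv_inr (d : ℕ) (i k : Fin d) : uv d F i (Sum.inr k) = if k = i then 1 else 0 := by
  simp [uv, Pi.single_apply]

theorem polar_uv (d : ℕ) (i : Fin d) (w : J d → F) :
    QuadraticMap.polar (Cfsg.quadFormPlus d F) w (uv d F i) = w (Sum.inl i) + w (Sum.inr i) := by
  rw [polar_plus]
  simp [uv_inl, uv_inr, Finset.sum_add_distrib]

theorem q_one (d : ℕ) (i : Fin d) : Cfsg.quadFormPlus d F (uv d F i) = 1 := by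
  unfold Cfsg.quadFormPlus
  rw [Finset.sum_eq_single i]
  · simp [uv_inl, uv_inr]
  · intro k _ hk
    simp [uv_inl, uv_inr, hk]
  · intro h
    exact absurd (Finset.mem_univ _) h

theorem q_comb (d : ℕ) (i j : Fin d) (hij : i ≠ j) (a b : F) :
    Cfsg.quadFormPlus d F (a • uv d F i + b • uv d F j) = a ^ 2 + b ^ 2 := by
  unfold Cfsg.quadFormPlus
  rw [Finset.sum_eq_add i j hij]
  · simp only [Pi.add_apply, Pi.smul_apply, smul_eq_mul, uv_inl, uv_inr, if_pos, if_neg hij,
      if_neg hij.symm]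
    ring
  · intro k _ hk
    simp [uv_inl, uv_inr, hk.1, hk.2]
  · intro h
    exact absurd (Finset.mem_univ _) h
  · intro h
    exact absurd (Finset.mem_univ _) h

theorem act (d : ℕ) (i j : Fin d) (hij : i ≠ j) (w : J d → F) :
    reflE (plusQ d F) (uv d F i) (reflE (plusQ d F) (uv d F j) w) =
      w - (w (Sum.inl i) + w (Sum.inr i)) • uv d F i -
        (w (Sum.inl j) + w (Sum.inr j)) • uv d F j := by
  rw [reflE_apply, reflE_apply]
  simp only [coe_plusQ]
  rw [q_one d i, q_one d j, inv_one, one_mul, one_mul, polar_uv, polar_uv]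
  have h3 : (w - (w (Sum.inl j) + w (Sum.inr j)) • uv d F j) (Sum.inl i) +
      (w - (w (Sum.inl j) + w (Sum.inr j)) • uv d F j) (Sum.inr i) =
        w (Sum.inl i) + w (Sum.inr i) := by
    simp [uv_inl, uv_inr, hij]
  rw [h3]
  abel

theorem sq_sum (hneg1 : ¬ IsSquare (-1 : F)) (a b : F) (hab : a ^ 2 + b ^ 2 = 0) :
    a = 0 ∧ b = 0 := by
  have hb : b = 0 := by
    by_contra hb
    apply hneg1
    refine ⟨a / b, ?_⟩
    field_simp
    linear_combination -hab
  refine ⟨?_, hb⟩
  rw [hb] at hab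
  simpa using hab

theorem main (hTop : Top.{u}) (hID : InvDec.{u}) (hC : Cancel.{u}) : InvBad1.{u} := by
  intro F _ _ hq4 d hd
  classical
  have hq : Odd (Fintype.card F) := by
    rw [Nat.odd_iff]
    omega
  have h2 : (2 : F) ≠ 0 := Cfsg.Agent.Lib.Helper44.FinSq.two_ne_zero_of_odd_card hq
  have hS : Sep (plusQ d F) := sep_plusQ d
  have hn : 2 ≤ Fintype.card (J d) := by
    rw [show Fintype.card (J d) = d + d by simp [Fintype.card_sum]]
    omega
  obtain ⟨i, j, hij⟩ : ∃ i j : Fin d, i ≠ j :=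
    ⟨⟨0, by omega⟩, ⟨1, by omega⟩, by simp [Fin.ext_iff]⟩
  have hQu : plusQ d F (uv d F i) = 1 := q_one d i
  have hQv : plusQ d F (uv d F j) = 1 := q_one d j
  obtain ⟨D, hDdef⟩ : ∃ D : Matrix (J d) (J d) F, D = ([uv d F i, uv d F j].map
      (fun v => Cfsg.reflectionMatrix (⇑(plusQ d F)) v)).prod := ⟨_, rfl⟩
  have hD : ∀ w, D *ᵥ w = ([uv d F i, uv d F j].map (reflE (plusQ d F))).prod w := by
    intro w
    rw [hDdef]
    exact prod_reflection_mulVec (plusQ d F) _ w
  have hvs : ∀ v ∈ [uv d F i, uv d F j], plusQ d F v ≠ 0 := by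
    intro v hv
    simp only [List.mem_cons, List.not_mem_nil, or_false] at hv
    rcases hv with rfl | rfl
    · rw [hQu]; exact one_ne_zero
    · rw [hQv]; exact one_ne_zero
  obtain ⟨g, hgΩ, hgD⟩ := (exists_mem_omega_iff h2 (plusQ d F) hS hn D _ hvs hD).2
    ⟨⟨1, rfl⟩, ⟨1, by simp [hQu, hQv]⟩⟩
  have hact : ∀ w, D *ᵥ w = w - (w (Sum.inl i) + w (Sum.inr i)) • uv d F i -
      (w (Sum.inl j) + w (Sum.inr j)) • uv d F j := by
    intro w
    rw [hD]
    simp only [List.map_cons, List.map_nil, List.prod_cons, List.prod_nil, mul_one]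
    rw [LinearEquiv.mul_apply]
    exact act d i j hij w
  have hsumi : ∀ w, (D *ᵥ w) (Sum.inl i) + (D *ᵥ w) (Sum.inr i) =
      -(w (Sum.inl i) + w (Sum.inr i)) := by
    intro w
    rw [hact]
    simp only [Pi.sub_apply, Pi.smul_apply, smul_eq_mul, uv_inl, uv_inr, if_pos, if_neg hij]
    ring
  have hsumj : ∀ w, (D *ᵥ w) (Sum.inl j) + (D *ᵥ w) (Sum.inr j) =
      -(w (Sum.inl j) + w (Sum.inr j)) := by
    intro w
    rw [hact]
    simp only [Pi.sub_apply, Pi.smul_apply, smul_eq_mul, uv_inl, uv_inr, if_pos, if_neg hij.symm]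
    ring
  have hx2 : (g : GL (J d) F) ^ 2 = 1 := by
    apply Units.ext
    rw [Units.val_pow_eq_pow_val, Units.val_one, hgD, pow_two]
    apply matrix_ext_mulVec
    intro w
    rw [← Matrix.mulVec_mulVec, Matrix.one_mulVec]
    rw [hact (D *ᵥ w), hsumi, hsumj, hact w]
    module
  have hns : ∀ z : F, D ≠ z • (1 : Matrix (J d) (J d) F) := by
    intro z h
    have h4 := hact (Pi.single (Sum.inl i) 1)
    rw [h, Matrix.smul_mulVec, Matrix.one_mulVec] at h4
    have h5 := congrFun h4 (Sum.inr i)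
    simp [uv_inl, uv_inr, hij] at h5
  have hgiso : (g : GL (J d) F) ∈ Cfsg.isometryGroup F (Cfsg.quadFormPlus d F) := g.2
  refine ⟨(g : GL (J d) F), ?_, hx2, ?_, ?_⟩
  · unfold Cfsg.Geo.omegaGL
    rw [Subgroup.mem_map]
    exact ⟨g, hgΩ, rfl⟩
  · rw [hgD]
    exact hns
  · rintro ⟨W, hWd, hTS, hStab⟩
    obtain ⟨hNDx, hNDm, hperp, -, hdim, hsup⟩ := hID F hq d (g : GL (J d) F) hgiso hx2
    rw [hgD] at hNDx hNDm hperp hdim hsup hStab
    have hneg1 : ¬ IsSquare (-1 : F) := by
      rw [FiniteField.isSquare_neg_one_iff]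
      simp [hq4]
    have hWFx : W ≤ Fx D := by
      intro w' hw'
      rw [mem_Fx]
      have h1 : D *ᵥ w' ∈ W := by
        apply hStab
        rw [Submodule.mem_map]
        exact ⟨w', hw', Matrix.toLin'_apply D w'⟩
      have h3 : w' - D *ᵥ w' ∈ W := W.sub_mem hw' h1
      have h4 : w' - D *ᵥ w' = (w' (Sum.inl i) + w' (Sum.inr i)) • uv d F i +
          (w' (Sum.inl j) + w' (Sum.inr j)) • uv d F j := by
        rw [hact]
        abel
      have h5 := hTS _ h3
      rw [h4, q_comb d i j hij] at h5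
      obtain ⟨ha, hb⟩ := sq_sum hneg1 _ _ h5
      rw [hact, ha, hb, zero_smul, zero_smul, sub_zero, sub_zero]
    have hFmform : ∀ z ∈ Fm D, z = ((z (Sum.inl i) + z (Sum.inr i)) / 2) • uv d F i +
        ((z (Sum.inl j) + z (Sum.inr j)) / 2) • uv d F j := by
      intro z hz
      rw [mem_Fm] at hz
      have h1 := hact z
      rw [hz] at h1
      funext c
      have h2' := congrFun h1 c
      simp only [Pi.neg_apply, Pi.sub_apply, Pi.add_apply, Pi.smul_apply, smul_eq_mul] at h2' ⊢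
      field_simp
      linear_combination -h2'
    have huFm : uv d F i ∈ Fm D := by
      rw [mem_Fm, hact]
      simp only [uv_inl, uv_inr, if_pos, if_neg hij, if_neg hij.symm]
      module
    have hvFm : uv d F j ∈ Fm D := by
      rw [mem_Fm, hact]
      simp only [uv_inl, uv_inr, if_pos, if_neg hij, if_neg hij.symm]
      module
    have hli : LinearIndependent F ![uv d F i, uv d F j] := by
      rw [LinearIndependent.pair_iff]
      intro s t hst
      have e1 := congrFun hst (Sum.inl i)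
      have e2 := congrFun hst (Sum.inl j)
      simp [uv_inl, hij, hij.symm] at e1 e2
      exact ⟨e1, e2⟩
    have hFmeq : Fm D = Submodule.span F (Set.range ![uv d F i, uv d F j]) := by
      apply le_antisymm
      · intro z hz
        rw [hFmform z hz]
        exact Submodule.add_mem _ (Submodule.smul_mem _ _ (Submodule.subset_span ⟨0, rfl⟩))
          (Submodule.smul_mem _ _ (Submodule.subset_span ⟨1, rfl⟩))
      · rw [Submodule.span_le]
        rintro _ ⟨k, rfl⟩
        fin_cases k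
        · exact huFm
        · exact hvFm
    have hFm2 : Module.finrank F ↥(Fm D) = 2 := by
      rw [hFmeq, finrank_span_eq_card hli]
      simp
    have hPx : Plus d F (Fx D) := ⟨W, hWFx, hTS, by omega⟩
    have hPsup : Plus d F (Fx D ⊔ Fm D) := by
      rw [hsup]
      exact (hTop F d).2
    obtain ⟨U, hUle, hUTS, hUfin⟩ := hC F d (Fx D) (Fm D) hNDx hNDm hperp hPsup hPx
    have hU1 : 0 < Module.finrank F ↥U := by omega
    rw [Module.finrank_pos_iff_exists_ne_zero] at hU1
    obtain ⟨⟨z, hzU⟩, hz0⟩ := hU1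
    have hzm := hUle hzU
    have hzf := hFmform z hzm
    have hQ := hUTS z hzU
    rw [hzf, q_comb d i j hij] at hQ
    obtain ⟨ha, hb⟩ := sq_sum hneg1 _ _ hQ
    apply hz0
    apply Subtype.ext
    show z = 0
    rw [hzf, ha, hb, zero_smul, zero_smul, add_zero]

end Cfsg.Agent.Lib.Helper60.TPINVBAD1
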