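import Mathlib
import Cfsg.Agent.Lib.Helper44.TSStmt
import Cfsg.Agent.Lib.Helper44.NegPairs

set_option autoImplicit false

/-! Piece INVBAD of S5972 (helper60): for `q ≡ 3 (mod 4)` the product of the reflections in
`e₀` and `e₁ + f₁` is an involution of `Ω` fixing no totally singular `d`-space. -/

namespace Cfsg.Agent.Lib.Helper60.TSINVBAD

open Module QuadraticMap Matrix
open Cfsg.Agent.Lib.Helper37.HypStmt Cfsg.Agent.Lib.Helper37.HypStmt2
open Cfsg.Agent.Lib.Helper44.TSStmt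
open Cfsg.Agent.Lib.Helper44.QSpace Cfsg.Agent.Lib.Helper44.OGroup Cfsg.Agent.Lib.Helper44.OMat
open Cfsg.Agent.Lib.Helper44.NegPairs

universe u

variable {F : Type u} [Field F]

theorem polar_odd (d : ℕ) (x y : I d → F) :
    QuadraticMap.polar (Cfsg.quadFormOdd d F) x y = 2 * x (Sum.inl ()) * y (Sum.inl ()) +
      ∑ i : Fin d, (x (Sum.inr (Sum.inl i)) * y (Sum.inr (Sum.inr i)) +
        x (Sum.inr (Sum.inr i)) * y (Sum.inr (Sum.inl i))) := by
  simp only [QuadraticMap.polar, Cfsg.quadFormOdd, Pi.add_apply]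
  have h : ∀ (a b c a' b' c' : F), a + a' - (b + b') - (c + c') = (a - b - c) + (a' - b' - c') := by
    intros; ring
  rw [h, ← Finset.sum_sub_distrib, ← Finset.sum_sub_distrib]
  congr 1
  · ring
  · apply Finset.sum_congr rfl
    intro i _
    ring

/-- the vector `e₀` -/
def v0 (d : ℕ) (F : Type u) [Field F] : I d → F := Pi.single (Sum.inl ()) 1

/-- the vector `e₁ + f₁` -/
def w0 (d : ℕ) (hd : 1 ≤ d) (F : Type u) [Field F] : I d → F :=
  Pi.single (Sum.inr (Sum.inl ⟨0, hd⟩)) 1 + Pi.single (Sum.inr (Sum.inr ⟨0, hd⟩)) 1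

theorem v0_inl (d : ℕ) : v0 d F (Sum.inl ()) = 1 := by simp [v0]

theorem v0_inr (d : ℕ) (c : Fin d ⊕ Fin d) : v0 d F (Sum.inr c) = 0 := by simp [v0]

theorem w0_inl (d : ℕ) (hd : 1 ≤ d) : w0 d hd F (Sum.inl ()) = 0 := by simp [w0]

theorem w0_inrl (d : ℕ) (hd : 1 ≤ d) (i : Fin d) :
    w0 d hd F (Sum.inr (Sum.inl i)) = if i = ⟨0, hd⟩ then 1 else 0 := by
  simp [w0, Pi.single_apply]

theorem w0_inrr (d : ℕ) (hd : 1 ≤ d) (i : Fin d) :
    w0 d hd F (Sum.inr (Sum.inr i)) = if i = ⟨0, hd⟩ then 1 else 0 := by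
  simp [w0, Pi.single_apply]

theorem polar_v0 (d : ℕ) (u : I d → F) :
    QuadraticMap.polar (Cfsg.quadFormOdd d F) u (v0 d F) = 2 * u (Sum.inl ()) := by
  rw [polar_odd]
  simp [v0_inl, v0_inr]

theorem polar_w0 (d : ℕ) (hd : 1 ≤ d) (u : I d → F) :
    QuadraticMap.polar (Cfsg.quadFormOdd d F) u (w0 d hd F) =
      u (Sum.inr (Sum.inl ⟨0, hd⟩)) + u (Sum.inr (Sum.inr ⟨0, hd⟩)) := by
  rw [polar_odd]
  simp [w0_inl, w0_inrl, w0_inrr, Finset.sum_add_distrib]

theorem q_comb (d : ℕ) (hd : 1 ≤ d) (a b : F) :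
    Cfsg.quadFormOdd d F (a • v0 d F + b • w0 d hd F) = a ^ 2 + b ^ 2 := by
  have hsum : ∑ i : Fin d, (a • v0 d F + b • w0 d hd F) (Sum.inr (Sum.inl i)) *
      (a • v0 d F + b • w0 d hd F) (Sum.inr (Sum.inr i)) = b ^ 2 := by
    rw [Finset.sum_eq_single (⟨0, hd⟩ : Fin d)]
    · simp [v0_inr, w0_inrl, w0_inrr]
      ring
    · intro i _ hi
      simp [v0_inr, w0_inrl, w0_inrr, hi]
    · intro h
      exact absurd (Finset.mem_univ _) h
  unfold Cfsg.quadFormOdd
  rw [hsum]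
  simp [v0_inl, w0_inl]

theorem q_v0 (d : ℕ) (hd : 1 ≤ d) : Cfsg.quadFormOdd d F (v0 d F) = 1 := by
  have h := q_comb d hd (1 : F) 0
  simpa using h

theorem q_w0 (d : ℕ) (hd : 1 ≤ d) : Cfsg.quadFormOdd d F (w0 d hd F) = 1 := by
  have h := q_comb d hd (0 : F) 1
  simpa using h

theorem act (d : ℕ) (hd : 1 ≤ d) (u : I d → F) :
    reflE (oddQ d F) (v0 d F) (reflE (oddQ d F) (w0 d hd F) u) =
      u - (2 * u (Sum.inl ())) • v0 d F -
        (u (Sum.inr (Sum.inl ⟨0, hd⟩)) + u (Sum.inr (Sum.inr ⟨0, hd⟩))) • w0 d hd F := by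
  rw [reflE_apply, reflE_apply]
  simp only [coe_oddQ]
  rw [q_v0 d hd, q_w0 d hd, inv_one, one_mul, one_mul, polar_w0, polar_v0]
  have h3 : (u - (u (Sum.inr (Sum.inl ⟨0, hd⟩)) + u (Sum.inr (Sum.inr ⟨0, hd⟩))) • w0 d hd F)
      (Sum.inl ()) = u (Sum.inl ()) := by
    simp [w0_inl]
  rw [h3]
  abel

theorem sq_sum (hneg1 : ¬ IsSquare (-1 : F)) (a b : F) (hab : a ^ 2 + b ^ 2 = 0) :
    a = 0 ∧ b = 0 := by
  have hb : b = 0 := by
    by_contra hb
    apply hneg1
    refine ⟨a / b, ?_⟩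
    field_simp
    linear_combination -hab
  refine ⟨?_, hb⟩
  rw [hb] at hab
  simpa using hab

theorem main (hID : InvDec.{u}) (hTH : TsHalf.{u}) : InvBad.{u} := by
  intro F _ _ hq hq4 d hd
  classical
  have h2 : (2 : F) ≠ 0 := Cfsg.Agent.Lib.Helper44.FinSq.two_ne_zero_of_odd_card hq
  have hS : Sep (oddQ d F) := sep_oddQ h2 d
  have hn : 2 ≤ Fintype.card (I d) := by
    rw [show Fintype.card (I d) = 1 + (d + d) by simp [Fintype.card_sum]]
    omega
  have hQv : oddQ d F (v0 d F) = 1 := q_v0 d hd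
  have hQw : oddQ d F (w0 d hd F) = 1 := q_w0 d hd
  obtain ⟨D, hDdef⟩ : ∃ D : Matrix (I d) (I d) F, D = ([v0 d F, w0 d hd F].map
      (fun v => Cfsg.reflectionMatrix (⇑(oddQ d F)) v)).prod := ⟨_, rfl⟩
  have hD : ∀ u, D *ᵥ u = ([v0 d F, w0 d hd F].map (reflE (oddQ d F))).prod u := by
    intro u
    rw [hDdef]
    exact prod_reflection_mulVec (oddQ d F) _ u
  have hvs : ∀ v ∈ [v0 d F, w0 d hd F], oddQ d F v ≠ 0 := by
    intro v hv
    simp only [List.mem_cons, List.not_mem_nil, or_false] at hv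
    rcases hv with rfl | rfl
    · rw [hQv]; exact one_ne_zero
    · rw [hQw]; exact one_ne_zero
  obtain ⟨g, hgΩ, hgD⟩ := (exists_mem_omega_iff h2 (oddQ d F) hS hn D _ hvs hD).2
    ⟨⟨1, rfl⟩, ⟨1, by simp [hQv, hQw]⟩⟩
  have hact : ∀ u, D *ᵥ u = u - (2 * u (Sum.inl ())) • v0 d F -
      (u (Sum.inr (Sum.inl ⟨0, hd⟩)) + u (Sum.inr (Sum.inr ⟨0, hd⟩))) • w0 d hd F := by
    intro u
    rw [hD]
    simp only [List.map_cons, List.map_nil, List.prod_cons, List.prod_nil, mul_one]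
    rw [LinearEquiv.mul_apply]
    exact act d hd u
  have hx2 : (g : GL (I d) F) ^ 2 = 1 := by
    apply Units.ext
    rw [Units.val_pow_eq_pow_val, Units.val_one, hgD, pow_two]
    apply matrix_ext_mulVec
    intro u
    rw [← Matrix.mulVec_mulVec, Matrix.one_mulVec]
    have h0 : (D *ᵥ u) (Sum.inl ()) = - u (Sum.inl ()) := by
      rw [hact]
      simp [v0_inl, w0_inl]
      ring
    have h1 : (D *ᵥ u) (Sum.inr (Sum.inl ⟨0, hd⟩)) + (D *ᵥ u) (Sum.inr (Sum.inr ⟨0, hd⟩)) =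
        -(u (Sum.inr (Sum.inl ⟨0, hd⟩)) + u (Sum.inr (Sum.inr ⟨0, hd⟩))) := by
      rw [hact]
      simp [v0_inr, w0_inrl, w0_inrr]
    rw [hact (D *ᵥ u), h0, h1, hact u]
    module
  have hx1 : (g : GL (I d) F) ≠ 1 := by
    intro h
    have h3 : D = 1 := by rw [← hgD, h]; rfl
    have h4 := hact (v0 d F)
    rw [h3, Matrix.one_mulVec] at h4
    have h5 := congrFun h4 (Sum.inl ())
    simp only [Pi.sub_apply, Pi.smul_apply, smul_eq_mul, v0_inl, v0_inr, w0_inl] at h5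
    apply h2
    linear_combination h5
  have hgiso : (g : GL (I d) F) ∈ Cfsg.isometryGroup F (Cfsg.quadFormOdd d F) := g.2
  refine ⟨(g : GL (I d) F), ?_, ?_, ?_⟩
  · unfold Cfsg.Geo.omegaGL
    rw [Subgroup.mem_map]
    exact ⟨g, hgΩ, rfl⟩
  · have : Fact (Nat.Prime 2) := ⟨Nat.prime_two⟩
    exact orderOf_eq_prime hx2 hx1
  · intro W hWd hTS hStab
    obtain ⟨hNDx, -, -, -, hdim⟩ := hID F hq d (g : GL (I d) F) hgiso hx2
    rw [hgD] at hNDx hdim hStab
    have hneg1 : ¬ IsSquare (-1 : F) := by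
      rw [FiniteField.isSquare_neg_one_iff]
      simp [hq4]
    have hWFx : W ≤ Fx D := by
      intro w' hw'
      rw [mem_Fx]
      have h1 : D *ᵥ w' ∈ W := by
        apply hStab
        rw [Submodule.mem_map]
        exact ⟨w', hw', Matrix.toLin'_apply D w'⟩
      have h3 : w' - D *ᵥ w' ∈ W := W.sub_mem hw' h1
      have h4 : w' - D *ᵥ w' = (2 * w' (Sum.inl ())) • v0 d F +
          (w' (Sum.inr (Sum.inl ⟨0, hd⟩)) + w' (Sum.inr (Sum.inr ⟨0, hd⟩))) • w0 d hd F := by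
        rw [hact]
        abel
      have h5 := hTS _ h3
      rw [h4, q_comb] at h5
      obtain ⟨ha, hb⟩ := sq_sum hneg1 _ _ h5
      rw [hact, ha, hb, zero_smul, zero_smul, sub_zero, sub_zero]
    have hmemFm : ∀ z, D *ᵥ z = -z → z ∈ Fm D := by
      intro z hz
      unfold Fm
      rw [LinearMap.mem_ker, LinearMap.add_apply, Matrix.toLin'_apply, LinearMap.id_apply, hz,
        neg_add_cancel]
    have hv0m : v0 d F ∈ Fm D := by
      apply hmemFm
      rw [hact, v0_inl, v0_inr, v0_inr, add_zero, zero_smul, sub_zero, mul_one]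
      module
    have hw0m : w0 d hd F ∈ Fm D := by
      apply hmemFm
      rw [hact, w0_inl, w0_inrl, w0_inrr, if_pos rfl, mul_zero, zero_smul, sub_zero]
      module
    have hli : LinearIndependent F ![v0 d F, w0 d hd F] := by
      rw [LinearIndependent.pair_iff]
      intro s t hst
      have e1 := congrFun hst (Sum.inl ())
      have e2 := congrFun hst (Sum.inr (Sum.inl ⟨0, hd⟩))
      simp only [Pi.add_apply, Pi.smul_apply, smul_eq_mul, v0_inl, v0_inr, w0_inl, w0_inrl,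
        if_pos, mul_one, mul_zero, add_zero, zero_add, Pi.zero_apply] at e1 e2
      exact ⟨e1, by simpa using e2⟩
    have hspan : Submodule.span F (Set.range ![v0 d F, w0 d hd F]) ≤ Fm D := by
      rw [Submodule.span_le]
      rintro _ ⟨i, rfl⟩
      fin_cases i
      · exact hv0m
      · exact hw0m
    have h2le : 2 ≤ Module.finrank F ↥(Fm D) := by
      have h7 := Submodule.finrank_mono hspan
      rw [finrank_span_eq_card hli] at h7
      simpa using h7
    have h6 := hTH F hq d (Fx D) W hNDx hWFx hTS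
    omega

end Cfsg.Agent.Lib.Helper60.TSINVBAD
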